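import Cfsg.Agent.R2.H4.Mon.Dod
import Cfsg.Agent.H848.Setup

/-!
# Frames: the common setting for the 2-local subgroups of the Monster

`Fr Q z eta pi y τ` : a chart at `z`, an element `y ∈ Q` over the frame class and `τ` permuting `z, y, z y`; no involution
of `C(z)` is over an element of square `-1` of `Co0`.

`TwoB z c` : `c` is a conjugate of `z`; `QQ Q z c` : the conjugate of `Q` belonging to `c`.

* `QQ_eq`, `QQ_conj`, `QQ_base`;
* `Fr.conj` : conjugates of frames; `Fr.at_pair` : a frame at each pair `c, x ∈ QQ c`.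
-/

set_option autoImplicit false
set_option linter.unusedSectionVars false

open Cfsg

namespace Cfsg.Agent.R2.H4.Mon.Frm

open Cfsg.Agent.SporadicA.Co1Simple (allOne)
open Cfsg.Agent.CoOneType.CoOneE (pr pr_surjective)
open Cfsg.Agent.MonsterU.Lam2 (L2 IsType)
open Cfsg.Agent.MonsterU.CoFrameL2
open Cfsg.Agent.MonsterU.AmalInf (AA mem_AA)
open Cfsg.Agent.MonsterU.Ch
open Cfsg.Agent.Co2Type.Quad
open Cfsg.Spor (Co1)

/-- **A frame.** -/
structure Fr {G : Type*} [Group G] (Q : Subgroup G) (z : G) (eta : G → L2)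
    (pi : Subgroup.centralizer ({z} : Set G) →* Co1) (y τ : G) : Prop where
  ch : Chart Q z eta pi
  hyQ : y ∈ Q
  hy : eta y = f0
  τz : τ * z * τ⁻¹ = y
  τy : τ * y * τ⁻¹ = z * y
  noB : ∀ a : Subgroup.centralizer ({z} : Set G), (a : G) * a = 1 → ∀ A : Co0, pi a = pr A → A * A = 1

variable {G : Type*} [Group G]

/-- the conjugates of `z` -/
def TwoB (z c : G) : Prop := ∃ g : G, g * z * g⁻¹ = c

theorem TwoB.self (z : G) : TwoB z z := ⟨1, by group⟩

theorem TwoB.conj {z c : G} (h : TwoB z c) (x : G) : TwoB z (x * c * x⁻¹) := by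
  obtain ⟨g, rfl⟩ := h
  exact ⟨x * g, by group⟩

theorem TwoB.symm {z c : G} (h : TwoB z c) : TwoB c z := by
  obtain ⟨g, rfl⟩ := h
  exact ⟨g⁻¹, by group⟩

theorem TwoB.trans {z c d : G} (h : TwoB z c) (h' : TwoB c d) : TwoB z d := by
  obtain ⟨g, rfl⟩ := h
  obtain ⟨k, rfl⟩ := h'
  exact ⟨k * g, by group⟩

theorem twoB_conj_iff {z c : G} (x : G) : TwoB z (x * c * x⁻¹) ↔ TwoB z c := by
  refine ⟨fun h => ?_, fun h => h.conj x⟩
  have h1 := h.conj x⁻¹
  have e : x⁻¹ * (x * c * x⁻¹) * x⁻¹⁻¹ = c := by group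
  rwa [e] at h1

/-- the conjugate of `Q` belonging to `c` -/
def QQ (Q : Subgroup G) (z c : G) : Subgroup G := ⨆ (g : G) (_ : g * z * g⁻¹ = c), AA Q g

variable {Q : Subgroup G} {z : G} {eta : G → L2} {pi : Subgroup.centralizer ({z} : Set G) →* Co1} {y τ : G}

theorem AA_one : AA Q 1 = Q := by
  ext x
  rw [mem_AA]
  simp

theorem AA_AA (g k : G) : AA (AA Q g) k = AA Q (k * g) := by
  ext x
  rw [mem_AA, mem_AA, mem_AA]
  have e : g⁻¹ * (k⁻¹ * x * k) * g = (k * g)⁻¹ * x * (k * g) := by group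
  rw [e]

theorem conj_mem_AA {g x : G} (k : G) : k * x * k⁻¹ ∈ AA Q (k * g) ↔ x ∈ AA Q g := by
  rw [mem_AA, mem_AA]
  have e : (k * g)⁻¹ * (k * x * k⁻¹) * (k * g) = g⁻¹ * x * g := by group
  rw [e]

/-- `AA Q g` depends only on the conjugate -/
theorem AA_eq (hL : Large Q z) {g k : G} (h : g * z * g⁻¹ = k * z * k⁻¹) : AA Q g = AA Q k := by
  have key : ∀ {g k : G}, g * z * g⁻¹ = k * z * k⁻¹ → AA Q g ≤ AA Q k := by
    intro g k h x hx
    rw [mem_AA] at hx ⊢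
    have h1 : (k⁻¹ * g) * z = z * (k⁻¹ * g) := by
      calc (k⁻¹ * g) * z = k⁻¹ * (g * z * g⁻¹) * g := by group
        _ = k⁻¹ * (k * z * k⁻¹) * g := by rw [h]
        _ = z * (k⁻¹ * g) := by group
    have h2 := hL.conj_mem _ h1 _ hx
    have e : k⁻¹ * g * (g⁻¹ * x * g) * (k⁻¹ * g)⁻¹ = k⁻¹ * x * k := by group
    rwa [e] at h2
  exact le_antisymm (key h) (key h.symm)

theorem QQ_eq (hL : Large Q z) {g c : G} (h : g * z * g⁻¹ = c) : QQ Q z c = AA Q g := by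
  apply le_antisymm
  · refine iSup_le fun k => iSup_le fun hk => ?_
    exact (AA_eq hL (hk.trans h.symm)).le
  · exact le_iSup₂_of_le g h le_rfl

theorem QQ_self (hL : Large Q z) : QQ Q z z = Q := by
  rw [QQ_eq hL (g := 1) (by group), AA_one]

theorem mem_QQ_conj (hL : Large Q z) {c x : G} (hc : TwoB z c) (k : G) :
    k * x * k⁻¹ ∈ QQ Q z (k * c * k⁻¹) ↔ x ∈ QQ Q z c := by
  obtain ⟨g, rfl⟩ := hc
  rw [QQ_eq hL rfl, QQ_eq hL (g := k * g) (by group), conj_mem_AA]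

/-- base change -/
theorem QQ_base (hL : Large Q z) (hL' : ∀ g : G, Large (AA Q g) (g * z * g⁻¹)) {c : G} (hc : TwoB z c) (g : G) :
    QQ (AA Q g) (g * z * g⁻¹) c = QQ Q z c := by
  obtain ⟨k, rfl⟩ := hc
  rw [QQ_eq hL rfl, QQ_eq (hL' g) (g := k * g⁻¹) (by group), AA_AA]
  congr 1
  group

/-! ### Conjugates of charts -/

theorem AA_eq_comap (g : G) : AA Q g = Q.comap (MulAut.conj g).symm.toMonoidHom := by
  ext x
  rw [mem_AA]
  show g⁻¹ * x * g ∈ Q ↔ (MulAut.conj g).symm x ∈ Q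
  rw [MulAut.conj_symm_apply]

theorem large_conj (hL : Large Q z) (g : G) : Large (AA Q g) (g * z * g⁻¹) := by
  rw [AA_eq_comap]
  exact Cfsg.Agent.H848.Setup.large_transport (MulAut.conj g).symm hL

theorem Fr.conj (F : Fr Q z eta pi y τ) (g : G) :
    ∃ (eta' : G → L2) (pi' : Subgroup.centralizer ({g * z * g⁻¹} : Set G) →* Co1),
      Fr (AA Q g) (g * z * g⁻¹) eta' pi' (g * y * g⁻¹) (g * τ * g⁻¹) := by
  have h1 := Cfsg.Agent.H848.Setup.chart_transport (MulAut.conj g).symm F.ch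
  rw [← AA_eq_comap] at h1
  refine ⟨_, pi.comp (Cfsg.Agent.H848.Setup.centMap (MulAut.conj g).symm z), h1, ?_, ?_, ?_, ?_, ?_⟩
  · rw [mem_AA]
    have e : g⁻¹ * (g * y * g⁻¹) * g = y := by group
    rw [e]; exact F.hyQ
  · show eta ((MulAut.conj g).symm (g * y * g⁻¹)) = f0
    rw [MulAut.conj_symm_apply]
    have e : g⁻¹ * (g * y * g⁻¹) * g = y := by group
    rw [e]; exact F.hy
  · rw [← F.τz]; group
  · have e : g * τ * g⁻¹ * (g * y * g⁻¹) * (g * τ * g⁻¹)⁻¹ = g * (τ * y * τ⁻¹) * g⁻¹ := by group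
    rw [e, F.τy]; group
  · intro a ha A hA
    refine F.noB (Cfsg.Agent.H848.Setup.centMap (MulAut.conj g).symm z a) ?_ A hA
    show (MulAut.conj g).symm (a : G) * (MulAut.conj g).symm (a : G) = 1
    rw [← map_mul, ha, map_one]

/-- twisting by an element of `Co1` -/
theorem noB_smul (hB : ∀ a : Subgroup.centralizer ({z} : Set G), (a : G) * a = 1 → ∀ A : Co0, pi a = pr A → A * A = 1)
    (s : Co1) (a : Subgroup.centralizer ({z} : Set G)) (ha : (a : G) * a = 1) (A : Co0)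
    (hA : ((MulAut.conj s).toMonoidHom.comp pi) a = pr A) : A * A = 1 := by
  obtain ⟨B, rfl⟩ := pr_surjective s
  have h1 : pr B * pi a * (pr B)⁻¹ = pr A := hA
  have h2 : pi a = pr (B⁻¹ * A * B) := by
    rw [map_mul, map_mul, map_inv, ← h1]; group
  have h3 := hB a ha _ h2
  calc A * A = B * (B⁻¹ * A * B * (B⁻¹ * A * B)) * B⁻¹ := by group
    _ = 1 := by rw [h3]; group

/-- **A frame at each singular pair.** -/
theorem Fr.at_pair [Finite G] (F : Fr Q z eta pi y τ) {c x : G} (hc : TwoB z c) (hx : TwoB z x)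
    (hxc : x ∈ QQ Q z c) (hne : x ≠ c) :
    ∃ (eta' : G → L2) (pi' : Subgroup.centralizer ({c} : Set G) →* Co1) (τ' : G),
      Fr (QQ Q z c) c eta' pi' x τ' := by
  obtain ⟨g, rfl⟩ := hc
  rw [QQ_eq F.ch.large rfl, mem_AA] at hxc
  have hx' : ∃ k, k * z * k⁻¹ = g⁻¹ * x * g := by
    obtain ⟨k, rfl⟩ := hx
    exact ⟨g⁻¹ * k, by group⟩
  have hne' : g⁻¹ * x * g ≠ z := by
    intro h
    apply hne
    rw [← h]; group
  obtain ⟨s, τ', h1, h2, h3⟩ := Cfsg.Agent.MonsterU.AmalSideOf.exists_frame F.ch hxc hne' hx'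
  have F' : Fr Q z (fun w => s • eta w) ((MulAut.conj s).toMonoidHom.comp pi) (g⁻¹ * x * g) τ' :=
    { ch := F.ch.smul s
      hyQ := hxc
      hy := h3
      τz := h1
      τy := h2
      noB := noB_smul F.noB s }
  obtain ⟨eta', pi', F''⟩ := F'.conj g
  have e : g * (g⁻¹ * x * g) * g⁻¹ = x := by group
  rw [e] at F''
  rw [QQ_eq F.ch.large rfl]
  exact ⟨eta', pi', _, F''⟩

/-! ### The four group `⟨z, y⟩` -/

theorem Fr.zy_comm (F : Fr Q z eta pi y τ) : z * y = y * z := (F.ch.large.comm_z y F.hyQ).symm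

theorem Fr.y_sq (F : Fr Q z eta pi y τ) : y * y = 1 :=
  Cfsg.Agent.MonsterU.AmalInf.y_sq F.ch F.hyQ F.hy F.τz F.τy

theorem Fr.z_sq (F : Fr Q z eta pi y τ) : z * z = 1 := F.ch.large.z_sq

theorem Fr.y_ne (F : Fr Q z eta pi y τ) : y ≠ z :=
  (Cfsg.Agent.MonsterU.AmalInf.z_ne_y F.ch F.hyQ F.hy F.τz F.τy).symm

theorem Fr.y_ne_one (F : Fr Q z eta pi y τ) : y ≠ 1 := by
  intro h
  have h1 := F.hy
  rw [h, F.ch.eta_one] at h1
  exact f0_ne h1.symm

theorem Fr.twoB_y (F : Fr Q z eta pi y τ) : TwoB z y := ⟨τ, F.τz⟩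

theorem Fr.twoB_zy (F : Fr Q z eta pi y τ) : TwoB z (z * y) := by
  have h := F.twoB_y.conj τ
  rwa [F.τy] at h

theorem Fr.QQ_z (F : Fr Q z eta pi y τ) : QQ Q z z = Q := QQ_self F.ch.large

theorem Fr.QQ_y (F : Fr Q z eta pi y τ) : QQ Q z y = AA Q τ := QQ_eq F.ch.large F.τz

theorem Fr.z_mem (F : Fr Q z eta pi y τ) : z ∈ QQ Q z y := by
  rw [F.QQ_y]
  exact Cfsg.Agent.MonsterU.AmalInf.z_mem_AA F.ch F.hyQ F.hy F.τz F.τy

theorem Fr.y_mem (F : Fr Q z eta pi y τ) : y ∈ QQ Q z y := by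
  rw [F.QQ_y]
  exact Cfsg.Agent.MonsterU.AmalInf.y_mem_AA F.ch F.hyQ F.hy F.τz F.τy

/-- the elements of `QQ c` commute with `c` -/
theorem comm_QQ (hL : Large Q z) {c x : G} (hc : TwoB z c) (hx : x ∈ QQ Q z c) : x * c = c * x := by
  obtain ⟨g, rfl⟩ := hc
  rw [QQ_eq hL rfl] at hx
  exact (large_conj hL g).comm_z x hx

theorem self_mem_QQ (hL : Large Q z) {c : G} (hc : TwoB z c) : c ∈ QQ Q z c := by
  obtain ⟨g, rfl⟩ := hc
  rw [QQ_eq hL rfl]
  exact (large_conj hL g).z_mem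

theorem large_QQ (hL : Large Q z) {c : G} (hc : TwoB z c) : Large (QQ Q z c) c := by
  obtain ⟨g, rfl⟩ := hc
  rw [QQ_eq hL rfl]
  exact large_conj hL g

/-- base change for frames at pairs -/
theorem QQ_base' (hL : Large Q z) {c d : G} (hc : TwoB z c) (hd : TwoB z d) :
    QQ (QQ Q z c) c d = QQ Q z d := by
  obtain ⟨g, rfl⟩ := hc
  rw [QQ_eq hL rfl]
  exact QQ_base hL (large_conj hL) hd g

/-- **symmetry** -/
theorem mem_QQ_symm [Finite G] (F : Fr Q z eta pi y τ) {c x : G} (hc : TwoB z c) (hx : TwoB z x) :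
    x ∈ QQ Q z c ↔ c ∈ QQ Q z x := by
  have key : ∀ {c x : G}, TwoB z c → TwoB z x → x ∈ QQ Q z c → c ∈ QQ Q z x := by
    intro c x hc hx h
    by_cases hne : x = c
    · rw [hne]; exact self_mem_QQ F.ch.large hc
    · obtain ⟨eta', pi', τ', F'⟩ := F.at_pair hc hx h hne
      have h1 := F'.z_mem
      rwa [QQ_base' F.ch.large hc hx] at h1
  exact ⟨key hc hx, key hx hc⟩

/-- the product of a singular pair -/
theorem twoB_mul [Finite G] (F : Fr Q z eta pi y τ) {c x : G} (hc : TwoB z c) (hx : TwoB z x)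
    (h : x ∈ QQ Q z c) (hne : x ≠ c) : TwoB z (c * x) := by
  obtain ⟨eta', pi', τ', F'⟩ := F.at_pair hc hx h hne
  exact hc.trans F'.twoB_zy

end Cfsg.Agent.R2.H4.Mon.Frm
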