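import Cfsg.Agent.R2.H4.Mon.GeoInst

/-!
# Conjugation invariance of the geometry of a frame
-/

set_option autoImplicit false
set_option linter.unusedSectionVars false

open Cfsg

namespace Cfsg.Agent.R2.H4.Mon.GeoConj

open Cfsg.Agent.MonsterU.Lam2 (L2)
open Cfsg.Agent.MonsterU.AmalInf (AA mem_AA)
open Cfsg.Agent.MonsterU.Ch
open Cfsg.Agent.H848.TenB (T mem_T)
open Cfsg.Agent.R2.H4.Mon.Frm
open Cfsg.Agent.R2.H4.Mon.GeoInst
open Cfsg.Agent.R2.M7
open Cfsg.Agent.R2.M7.Geo (cj CC)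
open Cfsg.Spor (Co1)

variable {G : Type*} [Group G]

/-! ### Subgroups -/

theorem cj_inf (k : G) (A B : Subgroup G) : cj k (A ⊓ B) = cj k A ⊓ cj k B := by
  ext x
  rw [mem_cj, Subgroup.mem_inf, Subgroup.mem_inf, mem_cj, mem_cj]

theorem cj_sup (k : G) (A B : Subgroup G) : cj k (A ⊔ B) = cj k A ⊔ cj k B := Subgroup.map_sup _ _ _

theorem CC_cj (k : G) (O : Subgroup G) : CC (cj k O) = cj k (CC O) := by
  ext x
  rw [mem_cj]
  show x ∈ Subgroup.centralizer _ ↔ _ ∈ Subgroup.centralizer _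
  rw [Subgroup.mem_centralizer_iff, Subgroup.mem_centralizer_iff]
  constructor
  · intro h a ha
    have h1 := h (k * a * k⁻¹) (conj_mem_cj.2 ha)
    calc a * (k⁻¹ * x * k) = k⁻¹ * ((k * a * k⁻¹) * x) * k := by group
      _ = k⁻¹ * (x * (k * a * k⁻¹)) * k := by rw [h1]
      _ = k⁻¹ * x * k * a := by group
  · intro h a ha
    have h1 := h (k⁻¹ * a * k) (mem_cj.1 ha)
    calc a * x = k * ((k⁻¹ * a * k) * (k⁻¹ * x * k)) * k⁻¹ := by group
      _ = k * (k⁻¹ * x * k * (k⁻¹ * a * k)) * k⁻¹ := by rw [h1]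
      _ = x * a := by group

theorem card_cj (k : G) (O : Subgroup G) : Nat.card (cj k O) = Nat.card O :=
  Nat.card_congr (Subgroup.equivMapOfInjective _ _ (MulAut.conj k).injective).toEquiv.symm

theorem mem_CC {O : Subgroup G} {x : G} : x ∈ CC O ↔ ∀ a ∈ O, a * x = x * a := Subgroup.mem_centralizer_iff

/-! ### The geometry -/

variable {Q : Subgroup G} {z : G} {eta : G → L2}
  {pi : Subgroup.centralizer ({z} : Set G) →* Co1} {h : Chart Q z eta pi} {o : golayCode}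

theorem pt_conj_iff {k x : G} : k * x * k⁻¹ ∈ (geo h o).Pt ↔ x ∈ (geo h o).Pt := twoB_conj_iff k

theorem QQ_conj_iff {k c x : G} : k * x * k⁻¹ ∈ (geo h o).QQ (k * c * k⁻¹) ↔ x ∈ (geo h o).QQ c := by
  rw [geo_QQ, QQ_conj_all, conj_mem_cj]

theorem QQ_cj (k c : G) : (geo h o).QQ (k * c * k⁻¹) = cj k ((geo h o).QQ c) := QQ_conj_all k c

theorem ark_conj_iff {k : G} {O : Subgroup G} : cj k O ∈ (geo h o).Ark ↔ O ∈ (geo h o).Ark := by
  rw [mem_Ark, mem_Ark]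
  constructor
  · rintro ⟨g, hg⟩
    refine ⟨k⁻¹ * g, ?_⟩
    rw [← cj_cj, ← hg, cj_cj, inv_mul_cancel, cj_one]
  · rintro ⟨g, rfl⟩
    exact ⟨k * g, cj_cj _ _ _⟩

theorem KK_cj (k v : G) (O : Subgroup G) : (geo h o).KK (cj k O) (k * v * k⁻¹) = cj k ((geo h o).KK O v) := by
  unfold Geo.KK
  rw [CC_cj, QQ_cj, ← cj_inf, ← cj_sup]

theorem KK_conj_iff {k v x : G} {O : Subgroup G} :
    k * x * k⁻¹ ∈ (geo h o).KK (cj k O) (k * v * k⁻¹) ↔ x ∈ (geo h o).KK O v := by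
  rw [KK_cj, conj_mem_cj]

theorem CC_conj_iff {k x : G} {O : Subgroup G} : k * x * k⁻¹ ∈ CC (cj k O) ↔ x ∈ CC O := by
  rw [CC_cj, conj_mem_cj]

theorem conj_eq_one_iff {k x : G} : k * x * k⁻¹ = 1 ↔ x = 1 := by
  constructor
  · intro h1
    calc x = k⁻¹ * (k * x * k⁻¹) * k := by group
      _ = 1 := by rw [h1]; group
  · rintro rfl; group

theorem mem_Vs_conj {k v s : G} {O : Subgroup G} :
    k * v * k⁻¹ ∈ (geo h o).Vs (cj k O) (k * s * k⁻¹) ↔ v ∈ (geo h o).Vs O s := by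
  unfold Geo.Vs
  simp only [Set.mem_ofPred_eq]
  rw [conj_eq_one_iff, conj_mem_cj, pt_conj_iff, KK_conj_iff]

theorem Vs_cj (k s : G) (O : Subgroup G) :
    (geo h o).Vs (cj k O) (k * s * k⁻¹) = (fun v => k * v * k⁻¹) '' ((geo h o).Vs O s) := by
  ext v
  constructor
  · intro hv
    refine ⟨k⁻¹ * v * k, ?_, by group⟩
    rw [← mem_Vs_conj (k := k)]
    have e : k * (k⁻¹ * v * k) * k⁻¹ = v := by group
    rw [e]; exact hv
  · rintro ⟨w, hw, rfl⟩
    exact mem_Vs_conj.2 hw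

theorem conj_injective (k : G) : Function.Injective fun v : G => k * v * k⁻¹ :=
  fun _ _ hab => mul_left_cancel (mul_right_cancel hab)

theorem ncard_Vs (k s : G) (O : Subgroup G) :
    ((geo h o).Vs (cj k O) (k * s * k⁻¹)).ncard = ((geo h o).Vs O s).ncard := by
  rw [Vs_cj, Set.ncard_image_of_injective _ (conj_injective k)]

theorem ncard_Vs_inter (k s s' : G) (O : Subgroup G) :
    ((geo h o).Vs (cj k O) (k * s * k⁻¹) ∩ (geo h o).Vs (cj k O) (k * s' * k⁻¹)).ncard =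
      ((geo h o).Vs O s ∩ (geo h o).Vs O s').ncard := by
  rw [Vs_cj, Vs_cj, ← Set.image_inter (conj_injective k), Set.ncard_image_of_injective _ (conj_injective k)]

theorem kap_conj (k x : G) : (geo h o).kap (k * x * k⁻¹) = (geo h o).kap x := by
  unfold Geo.kap
  congr 1
  rw [conj_eq_one_iff, pt_conj_iff]

theorem bet_conj (k a b : G) : (geo h o).bet (k * a * k⁻¹) (k * b * k⁻¹) = (geo h o).bet a b := by
  unfold Geo.bet
  have e : k * a * k⁻¹ * (k * b * k⁻¹) = k * (a * b) * k⁻¹ := by group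
  rw [e, kap_conj, kap_conj, kap_conj]

end Cfsg.Agent.R2.H4.Mon.GeoConj
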