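import Cfsg.Agent.R2.H4.Mon.Frm
import Cfsg.Agent.CoOneType.InvBridge

/-!
# The types of the pairs of commuting involutions

`F : Fr Q z eta pi y τ`, `a` an involution of `C(z)` outside `Q`.

* `types` : `a` is over an octad or over a dodecad;
* `type_D` : in the dodecad case there is `c ∈ Q` conjugate to `z` with `a ∈ QQ c`, centralised by `C(z) ∩ C(a)`, such that
  all involutions of `Q` commuting with `a` are in `QQ c`.
-/

set_option autoImplicit false
set_option linter.unusedSectionVars false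

open Cfsg

namespace Cfsg.Agent.R2.H4.Mon.Types

open Cfsg.Agent.SporadicA.Co1Simple (allOne)
open Cfsg.Agent.SporadicA.Co0Mono (signCo0)
open Cfsg.Agent.CoOneType.SignFacts
open Cfsg.Agent.CoOneType.CoOneE (pr pr_surjective E mem_E)
open Cfsg.Agent.MonsterU.Lam2 (L2 IsType)
open Cfsg.Agent.MonsterU.CoFrameL2
open Cfsg.Agent.MonsterU.AmalGen (pre mem_pre EE pi_mem_F_iff pre_W1 z_mem_pre)
open Cfsg.Agent.MonsterU.AmalInf (AA mem_AA CA mem_CA Einf Eτ mem_EE_iff exists_CA_of_E)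
open Cfsg.Agent.MonsterU.Ch
open Cfsg.Agent.H848.Oct (eps eps_mul_eps)
open Cfsg.Agent.R2.H4.Mon.KeyGrp
open Cfsg.Agent.R2.H4.Mon.Dod
open Cfsg.Agent.R2.H4.Mon.Frm
open Cfsg.Spor (Co1)

variable {G : Type*} [Group G] {Q : Subgroup G} {z : G} {eta : G → L2}
  {pi : Subgroup.centralizer ({z} : Set G) →* Co1} {y τ : G}

/-- **Octad or dodecad.** -/
theorem types (F : Fr Q z eta pi y τ) {a : Subgroup.centralizer ({z} : Set G)} (ha : (a : G) * a = 1)
    (haQ : (a : G) ∉ Q) : OctCl (pi a) ∨ DodCl (pi a) := by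
  obtain ⟨A, hA⟩ := pr_surjective (pi a)
  have hAA := F.noB a ha A hA.symm
  obtain ⟨g, c, hg⟩ := Cfsg.Agent.CoOneType.InvBridge.conj_sign A hAA
  have hconj : IsConj (pi a) (eps c) := by
    rw [isConj_iff]
    refine ⟨pr g, ?_⟩
    rw [← hA, ← map_inv, ← map_mul, ← map_mul, hg]
    rfl
  have hne : pi a ≠ 1 := fun h => haQ ((F.ch.pi_eq_one a).1 h)
  have hne' : eps c ≠ 1 := by
    intro h
    rw [h] at hconj
    exact hne (isConj_one_left.1 hconj)
  rcases wt_cases c with h | h | h | h | h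
  · exfalso
    apply hne'
    rw [Cfsg.Agent.CoOneType.CoOneE.wt_eq_zero c h, eps_zero]
  · exact Or.inl ⟨c, h, hconj⟩
  · exact Or.inr ⟨c, h, hconj⟩
  · left
    refine ⟨c + allOne, ?_, by rw [eps_add_allOne]; exact hconj⟩
    have := wt_add_allOne c
    omega
  · exfalso
    apply hne'
    rw [← eps_add_allOne]
    have h1 : wt (c + allOne) = 0 := by
      have := wt_add_allOne c
      omega
    rw [Cfsg.Agent.CoOneType.CoOneE.wt_eq_zero _ h1, eps_zero]

/-- `QQ y ∩ QQ (zy) ≤ Q` -/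
theorem inf_le (F : Fr Q z eta pi y τ) {x : G} (h1 : x ∈ QQ Q z y) (h2 : x ∈ QQ Q z (z * y)) : x ∈ Q := by
  rw [F.QQ_y] at h1
  have e : τ * τ * z * (τ * τ)⁻¹ = z * y := by
    calc τ * τ * z * (τ * τ)⁻¹ = τ * (τ * z * τ⁻¹) * τ⁻¹ := by group
      _ = z * y := by rw [F.τz, F.τy]
  rw [QQ_eq F.ch.large e, mem_AA] at h2
  rw [mem_AA] at h1
  have h3 : τ⁻¹ * x * τ ∈ EE F.ch := Einf F.ch F.hyQ F.hy F.τz F.τy _ h1 (by
    have e' : τ⁻¹ * (τ⁻¹ * x * τ) * τ = (τ * τ)⁻¹ * x * (τ * τ) := by group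
    rw [e']; exact h2)
  have h4 := Eτ F.ch F.hyQ F.hy F.τz F.τy _ h3
  have e2 : τ * (τ⁻¹ * x * τ) * τ⁻¹ = x := by group
  rw [e2] at h4
  exact h4.1

/-- `EE ≤ QQ (zy)` -/
theorem EE_le (F : Fr Q z eta pi y τ) {x : G} (hx : x ∈ EE F.ch) : x ∈ QQ Q z y ∧ x ∈ QQ Q z (z * y) := by
  have h1 := (mem_EE_iff F.ch F.hyQ F.hy F.τz F.τy).1 hx
  refine ⟨by rw [F.QQ_y]; exact h1.2, ?_⟩
  -- the frame for `τ⁻¹`
  have hzyQ : z * y ∈ Q := Q.mul_mem F.ch.large.z_mem F.hyQ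
  have hzy : eta (z * y) = f0 := by
    rw [F.ch.eta_mul z F.ch.large.z_mem y F.hyQ, F.ch.eta_z, zero_add, F.hy]
  have e1 : τ⁻¹ * z * τ⁻¹⁻¹ = z * y := by
    rw [inv_inv]; exact Cfsg.Agent.MonsterU.AmalInf.τz' F.ch F.hyQ F.hy F.τz F.τy
  have e2 : τ⁻¹ * (z * y) * τ⁻¹⁻¹ = z * (z * y) := by
    rw [inv_inv, Cfsg.Agent.MonsterU.AmalInf.τzy' F.ch F.hyQ F.hy F.τz F.τy, ← mul_assoc, F.ch.large.z_sq, one_mul]
  rw [QQ_eq F.ch.large e1]
  exact ((mem_EE_iff F.ch hzyQ hzy e1 e2).1 hx).2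

/-- the dodecad case, standard position -/
theorem dod_std (F : Fr Q z eta pi y τ) {a : Subgroup.centralizer ({z} : Set G)} (ha : (a : G) * a = 1)
    {d : golayCode} (hd : wt d = 12) (hpi : pi a = eps d) :
    ∃ c, TwoB z c ∧ c ∈ Q ∧ c ≠ z ∧ (a : G) ∈ QQ Q z c ∧
      (∀ x, x * z = z * x → x * (a : G) = a * x → x * c = c * x) ∧
      ∀ q ∈ Q, q * q = 1 → q * (a : G) = a * q → q ∈ QQ Q z c := by
  have h := F.ch
  have hL := h.large
  have haQ : (a : G) ∉ Q := by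
    intro hQ
    have h1 := (h.pi_eq_one a).2 hQ
    rw [hpi, ← eps_zero, eps_eq_iff] at h1
    rcases h1 with h1 | h1
    · rw [← h1] at hd
      unfold wt at hd
      rw [Cfsg.Agent.CoOneType.CoOneE.sup_zero, Finset.card_empty] at hd
      omega
    · have h2 := wt_add_allOne d
      rw [← h1] at h2
      unfold wt at h2 hd
      rw [Cfsg.Agent.CoOneType.CoOneE.sup_zero, Finset.card_empty] at h2
      omega
  -- an element of `Q_y` over the same sign change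
  obtain ⟨b, hb, hbc, hbpi⟩ := exists_CA_of_E h F.hyQ F.hy F.τz F.τy (s := eps d) ((mem_E _).2 ⟨d, rfl⟩)
  have hq : b⁻¹ * (a : G) ∈ Q := (h.pi_eq (c := ⟨b, hbc⟩) (d := a)).1 (hbpi.trans hpi.symm)
  set q := b⁻¹ * (a : G) with hqdef
  have haq : (a : G) = b * q := by rw [hqdef]; group
  -- the square of `b`
  have hb2 : b * b = 1 ∨ b * b = y := by
    have h1 := mem_AA.1 hb.1
    have e : b * b = τ * (τ⁻¹ * b * τ * (τ⁻¹ * b * τ)) * τ⁻¹ := by group
    rw [e]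
    rcases hL.sq _ h1 with h2 | h2
    · left; rw [h2]; group
    · right; rw [h2, F.τz]
  have hW1 : eps d • eta q + eta q ∈ W1 := by
    have h1 : b * q * b⁻¹ * (b * b) * q = 1 := by
      have e : b * q * b⁻¹ * (b * b) * q = (b * q) * (b * q) := by group
      rw [e, ← haq, ha]
    have hbq := hL.conj_mem b (Subgroup.mem_centralizer_singleton_iff.1 hbc) q hq
    have hbb : b * b ∈ Q := by
      rcases hb2 with h2 | h2 <;> rw [h2]
      · exact Q.one_mem
      · exact F.hyQ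
    have h2 := congrArg eta h1
    rw [h.eta_mul _ (Q.mul_mem hbq hbb) _ hq, h.eta_mul _ hbq _ hbb, h.eta_one] at h2
    have h3 : eta (b * q * b⁻¹) = eps d • eta q := by
      rw [← hbpi]; exact h.eta_conj ⟨b, hbc⟩ q hq
    rw [h3] at h2
    have h4 : eta (b * b) ∈ W1 := by
      rcases hb2 with h5 | h5 <;> rw [h5]
      · rw [h.eta_one]; exact W1.zero_mem
      · rw [F.hy]; exact f0_mem_W1
    have h5 : eps d • eta q + eta q = -eta (b * b) := by
      have e : eps d • eta q + eta (b * b) + eta q = (eps d • eta q + eta q) + eta (b * b) := by abel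
      rw [e] at h2
      exact eq_neg_of_add_eq_zero_left h2
    rw [h5]
    exact W1.neg_mem h4
  obtain ⟨r0, hr0⟩ := exists_comm hd hW1
  obtain ⟨r, hrQ, rfl⟩ := h.eta_surj r0
  -- `a` is in the conjugate of `Q_y` by `r`
  have haA : (a : G) ∈ AA Q (r * τ) := by
    have hr' : b⁻¹ * r⁻¹ * b ∈ Q := by
      have h1 : b⁻¹ * z = z * b⁻¹ := by
        have := Subgroup.mem_centralizer_singleton_iff.1 hbc
        calc b⁻¹ * z = b⁻¹ * (z * b) * b⁻¹ := by group
          _ = b⁻¹ * (b * z) * b⁻¹ := by rw [this]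
          _ = z * b⁻¹ := by group
      have h2 := hL.conj_mem b⁻¹ h1 r⁻¹ (Q.inv_mem hrQ)
      rwa [inv_inv] at h2
    have he : b⁻¹ * r⁻¹ * b * q * r ∈ EE h := by
      refine ⟨Q.mul_mem (Q.mul_mem hr' hq) hrQ, ?_⟩
      rw [h.eta_mul _ (Q.mul_mem hr' hq) _ hrQ, h.eta_mul _ hr' _ hq]
      have h2 : eta (b⁻¹ * r⁻¹ * b) = eps d • eta r := by
        have h3 := h.eta_conj (⟨b, hbc⟩⁻¹ : Subgroup.centralizer ({z} : Set G)) r⁻¹ (Q.inv_mem hrQ)
        rw [map_inv, hbpi, h.eta_inv hrQ] at h3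
        have h4 : (eps d)⁻¹ = eps d := inv_eq_of_mul_eq_one_left (eps_mul_eps d)
        rw [h4] at h3
        have e : ((⟨b, hbc⟩⁻¹ : Subgroup.centralizer ({z} : Set G)) : G) * r⁻¹ *
          ((⟨b, hbc⟩⁻¹ : Subgroup.centralizer ({z} : Set G)) : G)⁻¹ = b⁻¹ * r⁻¹ * b := by
          rw [Subgroup.coe_inv, inv_inv]
        rwa [e] at h3
      rw [h2]
      have e : eps d • eta r + eta q + eta r = eta q + (eps d • eta r + eta r) := by abel
      rw [e]; exact hr0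
    have heA := ((mem_EE_iff h F.hyQ F.hy F.τz F.τy).1 he).2
    have h1 : r⁻¹ * (a : G) * r ∈ AA Q τ := by
      have e : r⁻¹ * (a : G) * r = b * (b⁻¹ * r⁻¹ * b * q * r) := by rw [haq]; group
      rw [e]
      exact (AA Q τ).mul_mem hb.1 heA
    have h2 := (conj_mem_AA (Q := Q) (g := τ) r).2 h1
    have e : r * (r⁻¹ * (a : G) * r) * r⁻¹ = a := by group
    rwa [e] at h2
  -- the element `c`
  have hcz : r * τ * z * (r * τ)⁻¹ = r * y * r⁻¹ := by rw [← F.τz]; group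
  have hrz : r * z = z * r := hL.comm_z r hrQ
  have hc : r * y * r⁻¹ = y ∨ r * y * r⁻¹ = z * y := by
    rcases hL.comm r hrQ y F.hyQ with h1 | h1
    · left; rw [h1]; group
    · right
      rw [h1]
      calc y * r * z * r⁻¹ = y * (r * z) * r⁻¹ := by group
        _ = y * z := by rw [hrz]; group
        _ = z * y := F.zy_comm.symm
  set c := r * y * r⁻¹ with hcdef
  have hcB : TwoB z c := ⟨r * τ, hcz⟩
  have haQc : (a : G) ∈ QQ Q z c := by rw [QQ_eq hL hcz]; exact haA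
  have hcQ : c ∈ Q := Q.mul_mem (Q.mul_mem hrQ F.hyQ) (Q.inv_mem hrQ)
  have hyz : z * y ≠ z := fun h1 => F.y_ne_one (by simpa using h1)
  have hcne : c ≠ z := by
    rcases hc with h1 | h1 <;> rw [h1]
    · exact F.y_ne
    · exact hyz
  have hboth : ∀ x, x ∈ QQ Q z c → x ∈ QQ Q z (z * c) → x ∈ Q := by
    intro x h1 h2
    rcases hc with h3 | h3
    · rw [h3] at h1 h2
      exact inf_le F h1 h2
    · rw [h3] at h1 h2
      have e : z * (z * y) = y := by rw [← mul_assoc, F.z_sq, one_mul]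
      rw [e] at h2
      exact inf_le F h2 h1
  refine ⟨c, hcB, hcQ, hcne, haQc, ?_, ?_⟩
  · intro x hxz hxa
    have hxc : x ∈ Subgroup.centralizer ({z} : Set G) := Subgroup.mem_centralizer_singleton_iff.2 hxz
    have hcomm : pi ⟨x, hxc⟩ * eps d = eps d * pi ⟨x, hxc⟩ := by
      rw [← hpi, ← map_mul, ← map_mul]
      congr 1
      exact Subtype.ext hxa
    have hF := mem_F_of_comm hd hcomm
    have hcf : eta c = f0 := by
      rcases hc with h1 | h1 <;> rw [h1]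
      · exact F.hy
      · rw [h.eta_mul z hL.z_mem y F.hyQ, h.eta_z, zero_add, F.hy]
    rcases (pi_mem_F_iff h hcQ hcf ⟨x, hxc⟩).1 hF with h1 | h1
    · exact h1
    · exfalso
      apply haQ
      apply hboth _ haQc
      have h2 := (mem_QQ_conj hL hcB x (x := (a : G))).2 haQc
      have e1 : x * (a : G) * x⁻¹ = a := by rw [hxa]; group
      have e2 : x * c * x⁻¹ = z * c := by
        have h3 : x * c = c * z * x := h1
        rw [h3, ← hL.comm_z c hcQ]; group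
      rwa [e1, e2] at h2
  · intro q' hq' hsq hcomm
    have h1 : eps d • eta q' = eta q' := by
      rw [← hpi, ← h.eta_conj a q' hq']
      congr 1
      rw [← hcomm]; group
    have h2 := mem_W12_of_fix hd h1 ((h.sq_one hq').1 hsq)
    have h3 := EE_le F (x := q') ⟨hq', h2⟩
    rcases hc with h4 | h4 <;> rw [h4]
    · exact h3.1
    · exact h3.2

/-- **The dodecad case.** -/
theorem type_D (F : Fr Q z eta pi y τ) {a : Subgroup.centralizer ({z} : Set G)} (ha : (a : G) * a = 1)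
    (hD : DodCl (pi a)) :
    ∃ c, TwoB z c ∧ c ∈ Q ∧ c ≠ z ∧ (a : G) ∈ QQ Q z c ∧
      (∀ x, x * z = z * x → x * (a : G) = a * x → x * c = c * x) ∧
      ∀ q ∈ Q, q * q = 1 → q * (a : G) = a * q → q ∈ QQ Q z c := by
  have hL := F.ch.large
  obtain ⟨d, hd, hconj⟩ := hD
  rw [isConj_iff] at hconj
  obtain ⟨s, hs⟩ := hconj
  obtain ⟨g, rfl⟩ := F.ch.pi_surj s
  have hgz : (g : G) * z = z * g := Subgroup.mem_centralizer_singleton_iff.1 g.2
  have hgz' : (g : G)⁻¹ * z = z * (g : G)⁻¹ := by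
    calc (g : G)⁻¹ * z = (g : G)⁻¹ * (z * g) * (g : G)⁻¹ := by group
      _ = z * (g : G)⁻¹ := by rw [← hgz]; group
  have e1 : (g : G)⁻¹ * z * (g : G)⁻¹⁻¹ = z := by rw [hgz']; group
  obtain ⟨c, hcB, hcQ, hcne, hac, hcent, hin⟩ := dod_std F (a := g * a * g⁻¹) (by
    show (g : G) * a * (g : G)⁻¹ * ((g : G) * a * (g : G)⁻¹) = 1
    calc (g : G) * a * (g : G)⁻¹ * ((g : G) * a * (g : G)⁻¹) = (g : G) * (a * a) * (g : G)⁻¹ := by group
      _ = 1 := by rw [ha]; group) hd (by rw [map_mul, map_mul, map_inv]; exact hs)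
  have hac' : (g : G) * a * (g : G)⁻¹ ∈ QQ Q z c := hac
  refine ⟨(g : G)⁻¹ * c * (g : G)⁻¹⁻¹, hcB.conj _, hL.conj_mem _ hgz' _ hcQ, ?_, ?_, ?_, ?_⟩
  · intro h1
    apply hcne
    calc c = (g : G) * ((g : G)⁻¹ * c * (g : G)⁻¹⁻¹) * (g : G)⁻¹ := by group
      _ = z := by rw [h1, hgz]; group
  · have h1 := (mem_QQ_conj hL hcB (g : G)⁻¹).2 hac'
    have e : (g : G)⁻¹ * ((g : G) * a * (g : G)⁻¹) * (g : G)⁻¹⁻¹ = a := by group
    rwa [e] at h1
  · intro x hxz hxa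
    have h1 := hcent ((g : G) * x * (g : G)⁻¹) (by
      calc (g : G) * x * (g : G)⁻¹ * z = (g : G) * x * ((g : G)⁻¹ * z) := by group
        _ = (g : G) * (x * z) * (g : G)⁻¹ := by rw [hgz']; group
        _ = (g : G) * z * x * (g : G)⁻¹ := by rw [hxz]; group
        _ = z * ((g : G) * x * (g : G)⁻¹) := by rw [hgz]; group) (by
      show (g : G) * x * (g : G)⁻¹ * ((g : G) * a * (g : G)⁻¹) = (g : G) * a * (g : G)⁻¹ * ((g : G) * x * (g : G)⁻¹)
      calc (g : G) * x * (g : G)⁻¹ * ((g : G) * a * (g : G)⁻¹) = (g : G) * (x * a) * (g : G)⁻¹ := by group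
        _ = (g : G) * (a * x) * (g : G)⁻¹ := by rw [hxa]
        _ = _ := by group)
    calc x * ((g : G)⁻¹ * c * (g : G)⁻¹⁻¹) = (g : G)⁻¹ * ((g : G) * x * (g : G)⁻¹ * c) * g := by group
      _ = (g : G)⁻¹ * (c * ((g : G) * x * (g : G)⁻¹)) * g := by rw [h1]
      _ = _ := by group
  · intro q hq hsq hqa
    have h1 := hin ((g : G) * q * (g : G)⁻¹) (hL.conj_mem _ hgz _ hq) (by
      calc (g : G) * q * (g : G)⁻¹ * ((g : G) * q * (g : G)⁻¹) = (g : G) * (q * q) * (g : G)⁻¹ := by group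
        _ = 1 := by rw [hsq]; group) (by
      show (g : G) * q * (g : G)⁻¹ * ((g : G) * a * (g : G)⁻¹) = (g : G) * a * (g : G)⁻¹ * ((g : G) * q * (g : G)⁻¹)
      calc (g : G) * q * (g : G)⁻¹ * ((g : G) * a * (g : G)⁻¹) = (g : G) * (q * a) * (g : G)⁻¹ := by group
        _ = (g : G) * (a * q) * (g : G)⁻¹ := by rw [hqa]
        _ = _ := by group)
    have h2 := (mem_QQ_conj hL hcB (g : G)⁻¹).2 h1
    have e : (g : G)⁻¹ * ((g : G) * q * (g : G)⁻¹) * (g : G)⁻¹⁻¹ = q := by group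
    rwa [e] at h2

end Cfsg.Agent.R2.H4.Mon.Types
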