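import Cfsg.Agent.R2.M7.Geo
import Cfsg.Agent.R2.H4.Mon.Types
import Cfsg.Agent.H848.SetupFive
import Cfsg.Agent.H848.TenD
import Cfsg.Agent.H848.OctFacts

/-!
# The geometry of a frame

`geo h o` : the points, the subgroups `QQ`, the arks.  `basic` : the basic facts.

* `FO h o y τ` : the hypotheses of `H848/Ten*`; `Fr.exists_FO`;
* `Same h h'` : conjugate charts; `geo_eq_of_same`;
* `exists_frame_at` : a frame at each pair with the same geometry;
* `std1`, `std2` : transitivity on the pairs `(O, c)` and the triples `(O, c, v)`.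
-/

set_option autoImplicit false
set_option linter.unusedSectionVars false

open Cfsg

namespace Cfsg.Agent.R2.H4.Mon.GeoInst

open Cfsg.Agent.SporadicA.Co1Simple (allOne)
open Cfsg.Agent.SporadicA.Co0Mono (signCo0)
open Cfsg.Agent.CoOneType.SignFacts
open Cfsg.Agent.CoOneType.CoOneE (pr pr_surjective E mem_E)
open Cfsg.Agent.MonsterU.Lam2 (L2 IsType cl)
open Cfsg.Agent.MonsterU.CoFrameAct (cong_e8)
open Cfsg.Agent.MonsterU.CoFrameL2
open Cfsg.Agent.MonsterU.AmalGen (pre mem_pre EE pi_mem_F_iff pre_W1 z_mem_pre)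
open Cfsg.Agent.MonsterU.AmalInf (AA mem_AA CA mem_CA Einf Eτ mem_EE_iff exists_CA_of_E)
open Cfsg.Agent.MonsterU.Ch
open Cfsg.Agent.Co2Type.Quad
open Cfsg.Agent.H848.Oct (eps eps_mul_eps W16 W8 mem_W16 CO mem_CO)
open Cfsg.Agent.H848.TenB (T mem_T)
open Cfsg.Agent.R2.H4.Mon.KeyGrp
open Cfsg.Agent.R2.H4.Mon.Frm
open Cfsg.Agent.R2.M7
open Cfsg.Agent.R2.M7.Geo (cj CC)
open Cfsg.Spor (Co1)

variable {G : Type*} [Group G] {Q : Subgroup G} {z : G} {eta : G → L2}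
  {pi : Subgroup.centralizer ({z} : Set G) →* Co1} {y τ : G}

/-- **The geometry.** -/
def geo (h : Chart Q z eta pi) (o : golayCode) : Geo G where
  Pt := {c | TwoB z c}
  QQ := QQ Q z
  Ark := {O | ∃ g, O = cj g (T h o)}

theorem mem_Pt {h : Chart Q z eta pi} {o : golayCode} {c : G} : c ∈ (geo h o).Pt ↔ TwoB z c := Iff.rfl

theorem geo_QQ {h : Chart Q z eta pi} {o : golayCode} : (geo h o).QQ = QQ Q z := rfl

theorem mem_Ark {h : Chart Q z eta pi} {o : golayCode} {O : Subgroup G} :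
    O ∈ (geo h o).Ark ↔ ∃ g, O = cj g (T h o) := Iff.rfl

theorem cj_eq (g : G) (O : Subgroup G) : cj g O = AA O g := rfl

theorem mem_cj {g x : G} {O : Subgroup G} : x ∈ cj g O ↔ g⁻¹ * x * g ∈ O := mem_AA

theorem conj_mem_cj {g x : G} {O : Subgroup G} : g * x * g⁻¹ ∈ cj g O ↔ x ∈ O := by
  rw [mem_cj]
  have e : g⁻¹ * (g * x * g⁻¹) * g = x := by group
  rw [e]

theorem cj_cj (g k : G) (O : Subgroup G) : cj k (cj g O) = cj (k * g) O := AA_AA g k

theorem cj_one (O : Subgroup G) : cj 1 O = O := AA_one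

/-! ### The basic facts -/

theorem Fr.point (F : Fr Q z eta pi y τ) {c : G} (hc : TwoB z c) : ∃ x, TwoB z x ∧ x ∈ QQ Q z c ∧ x ≠ c := by
  obtain ⟨g, rfl⟩ := hc
  refine ⟨g * y * g⁻¹, F.twoB_y.conj g, ?_, ?_⟩
  · rw [mem_QQ_conj F.ch.large (TwoB.self z) g, F.QQ_z]
    exact F.hyQ
  · intro h
    apply F.y_ne
    exact mul_left_cancel (mul_right_cancel h)

/-- **The basic facts.** -/
theorem basic [Finite G] (F : Fr Q z eta pi y τ) (o : golayCode) : (geo F.ch o).Basic where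
  pt_sq := by
    rintro x ⟨g, rfl⟩
    calc g * z * g⁻¹ * (g * z * g⁻¹) = g * (z * z) * g⁻¹ := by group
      _ = 1 := by rw [F.z_sq]; group
  pt_ne := by
    rintro x ⟨g, rfl⟩ h
    apply F.ch.large.z_ne
    calc z = g⁻¹ * (g * z * g⁻¹) * g := by group
      _ = 1 := by rw [h]; group
  pt_conj := fun x hx g => TwoB.conj hx g
  pt_trans := fun x hx y hy => (TwoB.symm hx).trans hy
  QQ_conj := fun x hx g q hq => (mem_QQ_conj F.ch.large hx g).2 hq
  QQ_comm := fun x hx q hq => comm_QQ F.ch.large hx hq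
  QQ_self := fun x hx => self_mem_QQ F.ch.large hx
  QQ_der := by
    intro x hx a ha b hb
    have hL := large_QQ F.ch.large hx
    rcases hL.comm a ha b hb with h1 | h1
    · left; rw [h1]; group
    · right
      have h2 := hL.comm_z b hb
      have h3 := hL.comm_z a ha
      rw [h1]
      calc b * a * x * a⁻¹ * b⁻¹ = b * (a * x) * a⁻¹ * b⁻¹ := by group
        _ = b * x * b⁻¹ := by rw [h3]; group
        _ = x := by rw [h2]; group
  QQ_two := by
    intro x hx a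
    have hL := large_QQ F.ch.large hx
    refine ⟨2, ?_⟩
    apply Subtype.ext
    show (a : G) ^ (2 ^ 2) = 1
    have e : (a : G) ^ (2 ^ 2) = ((a : G) * a) * (a * a) := by
      rw [show (2 : ℕ) ^ 2 = 4 by norm_num, pow_succ, pow_succ, pow_two]; group
    rw [e]
    rcases hL.sq a a.2 with h1 | h1 <;> rw [h1]
    · rw [mul_one]
    · exact hL.z_sq
  QQ_cent := by
    intro x hx g hg
    have hL := large_QQ F.ch.large hx
    exact hL.self g (hg x (self_mem_QQ F.ch.large hx)) hg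
  symm := fun x hx y hy h => (mem_QQ_symm F hx hy).1 h
  line := fun x hx y hy hne h => twoB_mul F hx hy h (Ne.symm hne)
  line_inf := by
    intro x hx y hy hne h q hq hq'
    obtain ⟨eta', pi', τ', F'⟩ := F.at_pair hx hy h (Ne.symm hne)
    have h1 : q ∈ EE F'.ch := by
      rw [mem_EE_iff F'.ch F'.hyQ F'.hy F'.τz F'.τy]
      refine ⟨hq, ?_⟩
      have h2 := F'.QQ_y
      rw [QQ_base' F.ch.large hx hy] at h2
      rw [← h2]; exact hq'
    have h2 := (Types.EE_le F' h1).2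
    rwa [QQ_base' F.ch.large hx (twoB_mul F hx hy h (Ne.symm hne))] at h2

/-! ### Octads -/

/-- the facts hold for all octads -/
theorem facts {o : golayCode} (ho : wt o = 8) : Cfsg.Agent.H848.TenA.Facts o := by
  obtain ⟨i, hi⟩ : (sup o).Nonempty := by
    rw [← Finset.card_pos]; unfold wt at ho; omega
  have hf0 : f0 ∈ W8 o := by
    have h1 : f0 = cl (Cfsg.Agent.SporadicStructure.Co0Base.e8 i) := (cong_iff_cl _ _).1 (cong_e8 none i)
    rw [h1]
    apply Cfsg.Agent.H813.OctLat.mem_W8_of_supp ho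
    intro j hj
    have hne : j ≠ i := by
      rintro rfl
      exact hj hi
    rw [Cfsg.Agent.SporadicStructure.Co0Base.e8_coe]
    exact Pi.single_eq_of_ne hne _
  exact {
    f0_mem := hf0
    type8 := fun x hx => Cfsg.Agent.H813.OctLat.type_W8 ho hx
    hyp := Cfsg.Agent.H813.OctHyp.exists_hyp8 ho
    frame := fun x hx => Cfsg.Agent.H813.OctHyp.mem_W12_iff_q8 ho hx
    fix := fun g hg => Cfsg.Agent.H848.OctFix.eq_of_fix ho hg
    nofix := fun x hx hg => Cfsg.Agent.H848.OctNofix.mem_W8_of_fix ho hx hg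
    trans := fun x hx h4 => Cfsg.Agent.H771.OctT.exists_CO_of_type ho (Cfsg.Agent.H813.OctHyp.exists_hyp8 ho) hx h4
    card := Cfsg.Agent.H771.OctT.card_CO_le ho (Cfsg.Agent.H813.OctHyp.exists_hyp8 ho) }

theorem exists_octad : ∃ o : golayCode, wt o = 8 := by
  obtain ⟨o, ho, -⟩ := Cfsg.Agent.MonsterU.CoFrameSep.exists_octad none none
  exact ⟨o, ho⟩

/-! ### The subgroup of an element of `Co1` -/

/-- the fixed classes -/
noncomputable def Fx (s : Co1) : AddSubgroup L2 where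
  carrier := {x | s • x = x}
  zero_mem' := smul_zero _
  add_mem' := by
    intro a b ha hb
    show s • (a + b) = a + b
    rw [smul_add, ha, hb]
  neg_mem' := by
    intro a ha
    show s • (-a) = -a
    rw [smul_neg, ha]

theorem mem_Fx {s : Co1} {x : L2} : x ∈ Fx s ↔ s • x = x := Iff.rfl

theorem Fx_eps (o : golayCode) : Fx (eps o) = W16 o := rfl

/-- the ark of an element of `Co1` -/
def Tk (h : Chart Q z eta pi) (s : Co1) : Subgroup G := Subgroup.centralizer (pre h (Fx s) : Set G)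

theorem Tk_eps (h : Chart Q z eta pi) (o : golayCode) : Tk h (eps o) = T h o := rfl

theorem mem_Tk {h : Chart Q z eta pi} {s : Co1} {c : G} : c ∈ Tk h s ↔ ∀ x ∈ pre h (Fx s), x * c = c * x :=
  Subgroup.mem_centralizer_iff

/-- conjugation by an element inducing a relation between two charts -/
theorem Tk_conj {Q' : Subgroup G} {z' : G} {eta' : G → L2} {pi' : Subgroup.centralizer ({z'} : Set G) →* Co1}
    (h : Chart Q z eta pi) (h' : Chart Q' z' eta' pi') {g : G} {s : Co1} (hQ : Q' = AA Q g)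
    (hs : ∀ q ∈ Q, eta' (g * q * g⁻¹) = s • eta q) (t : Co1) : Tk h' t = cj g (Tk h (s⁻¹ * t * s)) := by
  have key : ∀ q, g * q * g⁻¹ ∈ pre h' (Fx t) ↔ q ∈ pre h (Fx (s⁻¹ * t * s)) := by
    intro q
    rw [mem_pre, mem_pre, mem_Fx, mem_Fx, hQ, mem_AA]
    have e : g⁻¹ * (g * q * g⁻¹) * g = q := by group
    rw [e]
    refine and_congr_right fun hq => ?_
    rw [hs q hq, mul_smul, mul_smul]
    constructor
    · intro h1
      rw [h1, inv_smul_smul]
    · intro h1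
      have h2 := congrArg (fun x => s • x) h1
      simp only [smul_inv_smul] at h2
      exact h2
  ext c
  rw [mem_Tk, mem_cj, mem_Tk]
  constructor
  · intro hc x hx
    have h1 := hc _ ((key x).2 hx)
    calc x * (g⁻¹ * c * g) = g⁻¹ * ((g * x * g⁻¹) * c) * g := by group
      _ = g⁻¹ * (c * (g * x * g⁻¹)) * g := by rw [h1]
      _ = g⁻¹ * c * g * x := by group
  · intro hc x hx
    have h1 := hc (g⁻¹ * x * g) ((key _).1 (by
      have e : g * (g⁻¹ * x * g) * g⁻¹ = x := by group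
      rw [e]; exact hx))
    calc x * c = g * ((g⁻¹ * x * g) * (g⁻¹ * c * g)) * g⁻¹ := by group
      _ = g * (g⁻¹ * c * g * (g⁻¹ * x * g)) * g⁻¹ := by rw [h1]
      _ = c * x := by group

/-- conjugation by an element of `C(z)` -/
theorem Tk_conj_cent (h : Chart Q z eta pi) (c : Subgroup.centralizer ({z} : Set G)) (t : Co1) :
    cj (c : G) (Tk h t) = Tk h (pi c * t * (pi c)⁻¹) := by
  have hz := Subgroup.mem_centralizer_singleton_iff.1 c.2
  have hQ : Q = AA Q (c : G) := by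
    have h1 : (c : G) * z * (c : G)⁻¹ = 1 * z * 1⁻¹ := by rw [hz]; group
    rw [AA_eq h.large h1, AA_one]
  rw [Tk_conj h h hQ (s := pi c) (fun q hq => h.eta_conj c q hq) (pi c * t * (pi c)⁻¹)]
  have e : (pi c)⁻¹ * (pi c * t * (pi c)⁻¹) * pi c = t := by group
  rw [e]

/-- the same with given element of `Co1` -/
theorem exists_cj (h : Chart Q z eta pi) {s t : Co1} (hst : IsConj s t) :
    ∃ c : Subgroup.centralizer ({z} : Set G), pi c * s * (pi c)⁻¹ = t ∧ cj (c : G) (Tk h s) = Tk h t := by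
  rw [isConj_iff] at hst
  obtain ⟨r, hr⟩ := hst
  obtain ⟨c, rfl⟩ := h.pi_surj r
  exact ⟨c, hr, by rw [Tk_conj_cent, hr]⟩

/-! ### The same geometry -/

/-- conjugate charts -/
def Same {Q' : Subgroup G} {z' : G} {eta' : G → L2} {pi' : Subgroup.centralizer ({z'} : Set G) →* Co1}
    (_ : Chart Q z eta pi) (_ : Chart Q' z' eta' pi') : Prop :=
  ∃ (g : G) (s : Co1), g * z * g⁻¹ = z' ∧ Q' = AA Q g ∧ ∀ q ∈ Q, eta' (g * q * g⁻¹) = s • eta q

theorem QQ_conj_all (k c : G) : QQ Q z (k * c * k⁻¹) = cj k (QQ Q z c) := by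
  have key : ∀ k c : G, QQ Q z (k * c * k⁻¹) ≤ cj k (QQ Q z c) := by
    intro k c
    refine iSup_le fun g => iSup_le fun hg => ?_
    intro x hx
    rw [mem_cj]
    have h1 : (k⁻¹ * g) * z * (k⁻¹ * g)⁻¹ = c := by
      calc (k⁻¹ * g) * z * (k⁻¹ * g)⁻¹ = k⁻¹ * (g * z * g⁻¹) * k := by group
        _ = c := by rw [hg]; group
    have h2 : AA Q (k⁻¹ * g) ≤ QQ Q z c := le_iSup₂_of_le (k⁻¹ * g) h1 le_rfl
    apply h2
    rw [mem_AA] at hx ⊢
    have e : (k⁻¹ * g)⁻¹ * (k⁻¹ * x * k) * (k⁻¹ * g) = g⁻¹ * x * g := by group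
    rw [e]; exact hx
  apply le_antisymm (key k c)
  intro x hx
  rw [mem_cj] at hx
  have h1 := key k⁻¹ (k * c * k⁻¹)
  have e : k⁻¹ * (k * c * k⁻¹) * k⁻¹⁻¹ = c := by group
  rw [e] at h1
  have h2 := h1 hx
  rw [mem_cj] at h2
  have e2 : k⁻¹⁻¹ * (k⁻¹ * x * k) * k⁻¹ = x := by group
  rwa [e2] at h2

theorem QQ_base_all (g c : G) : QQ (AA Q g) (g * z * g⁻¹) c = QQ Q z c := by
  apply le_antisymm
  · refine iSup_le fun k => iSup_le fun hk => ?_
    rw [AA_AA]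
    exact le_iSup₂_of_le (k * g) (by rw [← hk]; group) le_rfl
  · refine iSup_le fun k => iSup_le fun hk => ?_
    have h1 : k * g⁻¹ * (g * z * g⁻¹) * (k * g⁻¹)⁻¹ = c := by rw [← hk]; group
    refine le_iSup₂_of_le (k * g⁻¹) h1 ?_
    rw [AA_AA]
    have e : k * g⁻¹ * g = k := by group
    rw [e]

theorem geo_eq_of_same {Q' : Subgroup G} {z' : G} {eta' : G → L2}
    {pi' : Subgroup.centralizer ({z'} : Set G) →* Co1} {h : Chart Q z eta pi} {h' : Chart Q' z' eta' pi'}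
    (H : Same h h') (o : golayCode) : geo h' o = geo h o := by
  obtain ⟨g, s, rfl, rfl, hs⟩ := H
  have h1 : {c | TwoB (g * z * g⁻¹) c} = {c | TwoB z c} := by
    ext c
    constructor
    · intro hc
      exact (TwoB.trans ⟨g, rfl⟩ hc)
    · intro hc
      exact (TwoB.symm ⟨g, rfl⟩).trans hc
  have h2 : QQ (AA Q g) (g * z * g⁻¹) = QQ Q z := funext fun c => QQ_base_all g c
  have h3 : ∃ k, T h' o = cj k (T h o) := by
    have h4 := Tk_conj h h' rfl hs (eps o)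
    rw [Tk_eps] at h4
    obtain ⟨c, -, hc⟩ := exists_cj h (s := eps o) (t := s⁻¹ * eps o * s) (by
      rw [isConj_iff]
      exact ⟨s⁻¹, by rw [inv_inv]⟩)
    rw [← hc, cj_cj, Tk_eps] at h4
    exact ⟨_, h4⟩
  obtain ⟨k, hk⟩ := h3
  have h5 : {O | ∃ g, O = cj g (T h' o)} = {O | ∃ g, O = cj g (T h o)} := by
    ext O
    constructor
    · rintro ⟨m, rfl⟩
      exact ⟨m * k, by rw [hk, cj_cj]⟩
    · rintro ⟨m, rfl⟩
      refine ⟨m * k⁻¹, ?_⟩
      rw [hk, cj_cj]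
      congr 2
      group
  unfold geo
  rw [h1, h2, h5]

/-! ### Frames with the condition on `τ` -/

/-- the condition on `τ` -/
def TE (h : Chart Q z eta pi) (τ : G) : Prop := ∀ e ∈ EE h, τ * e * τ⁻¹ * e⁻¹ ∈ pre h W1

theorem Fr.exists_TE [Finite G] (F : Fr Q z eta pi y τ) : ∃ τ', ∃ F' : Fr Q z eta pi y τ', TE F'.ch τ' := by
  obtain ⟨τ', x, u, q₀, e⟩ := Cfsg.Agent.MonsterU.AmalSideOf.exists_elts F.ch F.hyQ F.hy F.τz F.τy
  obtain ⟨e₁, he₁⟩ := Cfsg.Agent.MonsterU.AmalGen.exists_e₁ F.ch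
  obtain ⟨a₁, ha₁⟩ := Cfsg.Agent.MonsterU.AmalGen.exists_a₁ F.ch
  have S := Cfsg.Agent.MonsterU.AmalSideOf.side_of F.ch F.hyQ F.hy e he₁ ha₁
  refine ⟨τ', ⟨F.ch, F.hyQ, F.hy, e.τz, e.τy, F.noB⟩, fun e he => ?_⟩
  have key := (Cfsg.Agent.MonsterU.AmalQuot.pinHyp S).fixE (Cfsg.Agent.MonsterU.AmalQuot.tauHat S)
    (Cfsg.Agent.MonsterU.AmalQuot.tauHat_three S) (Cfsg.Agent.MonsterU.AmalQuot.tauHat_x S)
    (fun e he => Cfsg.Agent.MonsterU.AmalQuot.tauHat_E S he)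
    (Cfsg.Agent.MonsterU.AmalQuot.mk e (S.EB he)) (Cfsg.Agent.MonsterU.AmalQuot.mem_hat.2 ⟨e, S.EB he, he, rfl⟩)
  rw [Cfsg.Agent.MonsterU.AmalQuot.tauHat_mk, Cfsg.Agent.MonsterU.AmalQuot.mk_eq] at key
  rw [pre_W1 F.ch F.hyQ F.hy]
  exact key

/-- the same with an element of order three -/
theorem Fr.exists_TE3 [Finite G] (F : Fr Q z eta pi y τ) :
    ∃ τ', ∃ F' : Fr Q z eta pi y τ', TE F'.ch τ' ∧ τ' * τ' * τ' = 1 := by
  obtain ⟨τ', x, u, q₀, e⟩ := Cfsg.Agent.MonsterU.AmalSideOf.exists_elts F.ch F.hyQ F.hy F.τz F.τy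
  obtain ⟨e₁, he₁⟩ := Cfsg.Agent.MonsterU.AmalGen.exists_e₁ F.ch
  obtain ⟨a₁, ha₁⟩ := Cfsg.Agent.MonsterU.AmalGen.exists_a₁ F.ch
  have S := Cfsg.Agent.MonsterU.AmalSideOf.side_of F.ch F.hyQ F.hy e he₁ ha₁
  refine ⟨τ', ⟨F.ch, F.hyQ, F.hy, e.τz, e.τy, F.noB⟩, fun e he => ?_, e.τ3⟩
  have key := (Cfsg.Agent.MonsterU.AmalQuot.pinHyp S).fixE (Cfsg.Agent.MonsterU.AmalQuot.tauHat S)
    (Cfsg.Agent.MonsterU.AmalQuot.tauHat_three S) (Cfsg.Agent.MonsterU.AmalQuot.tauHat_x S)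
    (fun e he => Cfsg.Agent.MonsterU.AmalQuot.tauHat_E S he)
    (Cfsg.Agent.MonsterU.AmalQuot.mk e (S.EB he)) (Cfsg.Agent.MonsterU.AmalQuot.mem_hat.2 ⟨e, S.EB he, he, rfl⟩)
  rw [Cfsg.Agent.MonsterU.AmalQuot.tauHat_mk, Cfsg.Agent.MonsterU.AmalQuot.mk_eq] at key
  rw [pre_W1 F.ch F.hyQ F.hy]
  exact key

/-- **A frame at each pair, with the same geometry.** -/
theorem exists_frame_at [Finite G] (F : Fr Q z eta pi y τ) {c x : G} (hc : TwoB z c) (hx : TwoB z x)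
    (hxc : x ∈ QQ Q z c) (hne : x ≠ c) :
    ∃ (eta' : G → L2) (pi' : Subgroup.centralizer ({c} : Set G) →* Co1) (τ' : G)
      (F' : Fr (QQ Q z c) c eta' pi' x τ'), Same F.ch F'.ch ∧ TE F'.ch τ' := by
  obtain ⟨g, rfl⟩ := hc
  rw [QQ_eq F.ch.large rfl, mem_AA] at hxc
  have hx' : ∃ k, k * z * k⁻¹ = g⁻¹ * x * g := by
    obtain ⟨k, rfl⟩ := hx
    exact ⟨g⁻¹ * k, by group⟩
  have hne' : g⁻¹ * x * g ≠ z := by
    intro h
    apply hne
    rw [← h]; group
  obtain ⟨s, τ', h1, h2, h3⟩ := Cfsg.Agent.MonsterU.AmalSideOf.exists_frame F.ch hxc hne' hx'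
  have F' : Fr Q z (fun w => s • eta w) ((MulAut.conj s).toMonoidHom.comp pi) (g⁻¹ * x * g) τ' :=
    { ch := F.ch.smul s
      hyQ := hxc
      hy := h3
      τz := h1
      τy := h2
      noB := noB_smul F.noB s }
  -- the conjugate
  have hch := Cfsg.Agent.H848.Setup.chart_transport (MulAut.conj g).symm F'.ch
  rw [← AA_eq_comap] at hch
  have F'' : Fr (AA Q g) (g * z * g⁻¹) (fun w => s • eta ((MulAut.conj g).symm w))
      (((MulAut.conj s).toMonoidHom.comp pi).comp (Cfsg.Agent.H848.Setup.centMap (MulAut.conj g).symm z)) x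
      (g * τ' * g⁻¹) := by
    refine ⟨hch, ?_, ?_, ?_, ?_, ?_⟩
    · rw [mem_AA]; exact hxc
    · show s • eta ((MulAut.conj g).symm x) = f0
      rw [MulAut.conj_symm_apply]
      exact h3
    · have e : g * τ' * g⁻¹ * (g * z * g⁻¹) * (g * τ' * g⁻¹)⁻¹ = g * (τ' * z * τ'⁻¹) * g⁻¹ := by group
      rw [e, h1]; group
    · have e : g * τ' * g⁻¹ * x * (g * τ' * g⁻¹)⁻¹ = g * (τ' * (g⁻¹ * x * g) * τ'⁻¹) * g⁻¹ := by group
      rw [e, h2]; group
    · intro a ha A hA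
      refine F'.noB (Cfsg.Agent.H848.Setup.centMap (MulAut.conj g).symm z a) ?_ A hA
      show (MulAut.conj g).symm (a : G) * (MulAut.conj g).symm (a : G) = 1
      rw [← map_mul, ha, map_one]
  obtain ⟨τ'', F3, hTE⟩ := Fr.exists_TE F''
  have hQQ : QQ Q z (g * z * g⁻¹) = AA Q g := QQ_eq F.ch.large rfl
  rw [hQQ]
  refine ⟨_, _, τ'', F3, ⟨g, s, rfl, rfl, fun q hq => ?_⟩, hTE⟩
  show s • eta ((MulAut.conj g).symm (g * q * g⁻¹)) = s • eta q
  rw [MulAut.conj_symm_apply]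
  congr 2
  group

/-! ### Transitivity -/

section

variable {o : golayCode} (Fo : Cfsg.Agent.H848.TenA.Facts o) (F : Fr Q z eta pi y τ) (hE : TE F.ch τ)
include Fo F hE

theorem z_mem_T : z ∈ T F.ch o := Cfsg.Agent.H848.TenB.pre_W8_le F.ch (z_mem_pre F.ch _)

theorem y_mem_T : y ∈ T F.ch o :=
  Cfsg.Agent.H848.TenB.pre_W8_le F.ch ⟨F.hyQ, by rw [F.hy]; exact Fo.f0_mem⟩

theorem cj_of_norm {n : G} (hn : n ∈ Subgroup.normalizer (T F.ch o : Set G)) : cj n (T F.ch o) = T F.ch o := by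
  ext x
  rw [mem_cj]
  rw [Subgroup.mem_normalizer_iff] at hn
  have h1 := hn (n⁻¹ * x * n)
  have e : n * (n⁻¹ * x * n) * n⁻¹ = x := by group
  rw [e] at h1
  exact h1

/-- the points of `T` are conjugate in the normaliser -/
theorem exists_norm [Finite G] {p : G} (hp : p ∈ T F.ch o) (hP : TwoB z p) :
    ∃ n ∈ Subgroup.normalizer (T F.ch o : Set G), n * z * n⁻¹ = p := by
  have h := F.ch
  by_cases hpz : p = z
  · refine ⟨1, Subgroup.one_mem _, ?_⟩
    rw [hpz]; group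
  by_cases hpQ : p ∈ Q
  · obtain ⟨g, hg⟩ := hP
    have h4 : IsType 4 (eta p) := by
      rw [← hg]
      exact Cfsg.Agent.MonsterU.Fused.type_four_of_conj h (by rw [hg]; exact hpQ) (by rw [hg]; exact hpz)
    obtain ⟨n, hn, hnz, -⟩ := Cfsg.Agent.H848.TenC.conj_of_type_four F.ch Fo F.hyQ F.hy F.τz F.τy hE
      (Cfsg.Agent.H848.TenB.mem_pre_W8 F.ch hpQ hp) h4
    exact ⟨n, hn, hnz⟩
  · obtain ⟨t, ht, htQ, ⟨g, hg, hgt⟩, hk, hk1⟩ := Cfsg.Agent.H848.TenD.exists_t1 F.ch Fo F.hyQ F.hy F.τz F.τy hE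
    obtain ⟨q, hq, h1 | h1⟩ := Cfsg.Agent.H848.TenD.Q_orbit F.ch Fo F.hyQ F.hy F.τz F.τy hE ht htQ hp hpQ
    · refine ⟨q * g, Subgroup.mul_mem _ (Cfsg.Agent.H848.TenC.Q_le_N F.ch Fo F.hyQ F.hy F.τz F.τy hE hq) hg, ?_⟩
      rw [← h1, ← hgt]; group
    · exfalso
      have hqz : q * z * q⁻¹ = z := by rw [F.ch.large.comm_z _ hq]; group
      have h2 : q * (t * z) * q⁻¹ = p := by
        calc q * (t * z) * q⁻¹ = (q * t * q⁻¹) * (q * z * q⁻¹) := by group
          _ = p := by rw [h1, hqz, mul_assoc, F.z_sq, mul_one]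
      have h3 : Cfsg.Agent.H848.TenD.kap z p = 1 := by rw [← h2, Cfsg.Agent.H848.TenD.kap_conj, hk1]
      have h4 : Cfsg.Agent.H848.TenD.kap z p = 0 := Cfsg.Agent.H848.TenD.kap_eq_zero.2 (Or.inr hP)
      rw [h3] at h4
      exact one_ne_zero h4

/-- **Transitivity on pairs.** -/
theorem std1 [Finite G] {O : Subgroup G} (hO : O ∈ (geo F.ch o).Ark) {c : G} (hc : c ∈ O) (hP : TwoB z c) :
    ∃ k, k * z * k⁻¹ = c ∧ cj k (T F.ch o) = O := by
  obtain ⟨g, rfl⟩ := hO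
  rw [mem_cj] at hc
  obtain ⟨n, hn, hnz⟩ := exists_norm Fo F hE hc (by
    have h1 := hP.conj g⁻¹
    rwa [inv_inv] at h1)
  refine ⟨g * n, ?_, ?_⟩
  · calc g * n * z * (g * n)⁻¹ = g * (n * z * n⁻¹) * g⁻¹ := by group
      _ = c := by rw [hnz]; group
  · rw [← cj_cj, cj_of_norm Fo F hE hn]

/-- **Transitivity on triples.** -/
theorem std2 [Finite G] {O : Subgroup G} (hO : O ∈ (geo F.ch o).Ark) {c v : G} (hc : c ∈ O) (hP : TwoB z c)
    (hv : v ∈ O) (hvP : TwoB z v) (hvc : v ∈ QQ Q z c) (hne : v ≠ c) :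
    ∃ k, k * z * k⁻¹ = c ∧ k * y * k⁻¹ = v ∧ cj k (T F.ch o) = O := by
  obtain ⟨k, rfl, rfl⟩ := std1 Fo F hE hO hc hP
  rw [mem_cj] at hv
  have hvQ : k⁻¹ * v * k ∈ Q := by
    rwa [QQ_eq F.ch.large rfl, mem_AA] at hvc
  have hv' : TwoB z (k⁻¹ * v * k) := by
    have h1 := hvP.conj k⁻¹
    rwa [inv_inv] at h1
  have hne' : k⁻¹ * v * k ≠ z := by
    intro h
    apply hne
    rw [← h]; group
  obtain ⟨g, hg⟩ := hv'
  have h4 : IsType 4 (eta (k⁻¹ * v * k)) := by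
    rw [← hg]
    exact Cfsg.Agent.MonsterU.Fused.type_four_of_conj F.ch (by rw [hg]; exact hvQ) (by rw [hg]; exact hne')
  obtain ⟨-, -, -, n, hn, hnz, hny, -⟩ := Cfsg.Agent.H848.TenC.conj_of_type_four F.ch Fo F.hyQ F.hy F.τz F.τy hE
    (Cfsg.Agent.H848.TenB.mem_pre_W8 F.ch hvQ hv) h4
  refine ⟨k * n, ?_, ?_, ?_⟩
  · calc k * n * z * (k * n)⁻¹ = k * (n * z * n⁻¹) * k⁻¹ := by group
      _ = k * z * k⁻¹ := by rw [hnz]; group
  · calc k * n * y * (k * n)⁻¹ = k * (n * y * n⁻¹) * k⁻¹ := by group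
      _ = v := by rw [hny]; group
  · rw [← cj_cj, cj_of_norm Fo F hE hn]

end

end Cfsg.Agent.R2.H4.Mon.GeoInst
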