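import Cfsg.Agent.CoOneType.CoOneE

/-!
# Subgroups of the Golay code all of whose elements are octads modulo the all-one word

`A` a subgroup containing the all-one word, all other non-zero elements of weight 8 or 16, `C` a subgroup such that the
products of the elements of `A` and of `C` are in the code: `|A| ≥ 8` implies `|C| ≤ 8`, `|A| ≥ 16` implies `|C| ≤ 4`.
-/

set_option autoImplicit false
set_option linter.unusedSectionVars false
open Cfsg

namespace Cfsg.Agent.R2.H4.Mon.Golay

open Cfsg.Agent.SporadicA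
open Cfsg.Agent.SporadicA.Co1Simple (allOne)
open Cfsg.Agent.CoOneType.SignFacts
open Cfsg.Agent.CoOneType.CoOneE
open Cfsg.Agent.SporadicStructure.LeechBase (zmod2_cases)

/-- the product of two words -/
def mulw (c a : golayCode) : GolayPt → ZMod 2 := fun i => (c : GolayPt → ZMod 2) i * (a : GolayPt → ZMod 2) i

theorem mulw_comm (c a : golayCode) : mulw c a = mulw a c := by
  funext i; exact mul_comm _ _

theorem support₂_mulw (c a : golayCode) : support₂ (mulw c a) = sup c ∩ sup a := by
  ext i
  rw [Finset.mem_inter, mem_sup, mem_sup, Cfsg.Agent.SporadicStructure.LeechBase.mem_support₂_iff_one]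
  show (c : GolayPt → ZMod 2) i * (a : GolayPt → ZMod 2) i = 1 ↔ _
  rcases zmod2_cases ((c : GolayPt → ZMod 2) i) with h | h <;>
    rcases zmod2_cases ((a : GolayPt → ZMod 2) i) with h' | h' <;> simp [h, h']

/-- a word whose product with an octad is in the code is constant on the octad -/
theorem cst_of_mulw {c a : golayCode} (ha : wt a = 8) (h : mulw c a ∈ golayCode) :
    sup c ∩ sup a = ∅ ∨ sup a ⊆ sup c := by
  have h1 := wt_cases ⟨mulw c a, h⟩
  have h2 : sup ⟨mulw c a, h⟩ = sup c ∩ sup a := support₂_mulw c a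
  unfold wt at h1 ha
  rw [h2] at h1
  have h3 : (sup c ∩ sup a).card ≤ (sup a).card := Finset.card_le_card Finset.inter_subset_right
  rcases h1 with h1 | h1
  · exact Or.inl (Finset.card_eq_zero.1 h1)
  · right
    have h4 : sup c ∩ sup a = sup a := Finset.eq_of_subset_of_card_le Finset.inter_subset_right (by omega)
    rw [← h4]
    exact Finset.inter_subset_left

/-- vanishing at one point of an octad -/
theorem disj_of_mulw {c a : golayCode} (ha : wt a = 8) (h : mulw c a ∈ golayCode) {i : GolayPt} (hi : i ∈ sup a)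
    (hc : i ∉ sup c) : sup c ∩ sup a = ∅ :=
  (cst_of_mulw ha h).resolve_right fun h1 => hc (h1 hi)

/-- bounds by evaluations -/
theorem card_le_of_eval (C : AddSubgroup golayCode) (s : Finset GolayPt)
    (h : ∀ c ∈ C, (∀ i ∈ s, i ∉ sup c) → c = 0) : Nat.card C ≤ 2 ^ s.card := by
  classical
  let f : C → (s → ZMod 2) := fun c i => ((c : golayCode) : GolayPt → ZMod 2) i
  have hf : Function.Injective f := by
    intro c d hcd
    have h1 : (c : golayCode) - d = 0 := by
      refine h _ (C.sub_mem c.2 d.2) fun i hi => ?_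
      rw [notMem_sup]
      show ((c : golayCode) : GolayPt → ZMod 2) i - ((d : golayCode) : GolayPt → ZMod 2) i = 0
      rw [sub_eq_zero]
      exact congrFun hcd ⟨i, hi⟩
    exact Subtype.ext (sub_eq_zero.1 h1)
  have h1 := Nat.card_le_card_of_injective f hf
  rwa [Nat.card_fun, Nat.card_eq_fintype_card (α := ZMod 2), ZMod.card, Nat.card_eq_fintype_card (α := s),
    Fintype.card_coe] at h1

theorem wt_ne_zero {c : golayCode} (h : c ≠ 0) : wt c ≠ 0 := fun h1 => h (wt_eq_zero c h1)

/-- two words with small supports -/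
theorem eq_of_small {c d : golayCode} {s : Finset GolayPt} (hs : s.card ≤ 11) (hc : sup c ⊆ s) (hd : sup d ⊆ s)
    (hc0 : c ≠ 0) (hd0 : d ≠ 0) : c = d := by
  by_contra hne
  have h1 := wt_cases c
  have h2 := wt_cases d
  have h3 := wt_cases (c + d)
  have h4 := wt_add c d
  have h5 := wt_ne_zero hc0
  have h6 := wt_ne_zero hd0
  have h7 : wt (c + d) ≠ 0 := by
    apply wt_ne_zero
    intro h
    apply hne
    have : c + d + d = d := by rw [h, zero_add]
    rw [add_assoc] at this
    have e : d + d = 0 := by
      apply Subtype.ext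
      funext i
      exact CharTwo.add_self_eq_zero _
    rwa [e, add_zero] at this
  have h8 : wt c ≤ 11 := (Finset.card_le_card hc).trans hs
  have h9 : wt d ≤ 11 := (Finset.card_le_card hd).trans hs
  have h10 : (sup c ∪ sup d).card ≤ 11 := (Finset.card_le_card (Finset.union_subset hc hd)).trans hs
  have h11 := Finset.card_union_add_card_inter (sup c) (sup d)
  have h12 : (sup c).card = wt c := rfl
  have h13 : (sup d).card = wt d := rfl
  omega

theorem add_self (c : golayCode) : c + c = 0 := by
  apply Subtype.ext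
  funext i
  exact CharTwo.add_self_eq_zero _

theorem add_eq_zero_iff {c d : golayCode} : c + d = 0 ↔ c = d := by
  constructor
  · intro h
    have : c + d + d = d := by rw [h, zero_add]
    rwa [add_assoc, add_self, add_zero] at this
  · rintro rfl; exact add_self _

section

variable {A C : AddSubgroup golayCode} (h1 : allOne ∈ A)
  (hA : ∀ a ∈ A, a ≠ 0 → a ≠ allOne → wt a = 8 ∨ wt a = 16)

include h1 hA

/-- an octad outside a given set closed under the complement -/
theorem exists_octad (s : Finset golayCode) (hs : s.card < Nat.card A) (h0 : 0 ∈ s) (hcl : ∀ x ∈ s, x + allOne ∈ s) :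
    ∃ a ∈ A, wt a = 8 ∧ a ∉ s := by
  classical
  obtain ⟨a, haA, has⟩ : ∃ a ∈ A, a ∉ s := by
    by_contra hn
    push Not at hn
    have h2 : (A : Set golayCode) ⊆ (s : Set golayCode) := fun x hx => hn x hx
    have h3 := Set.ncard_le_ncard h2 s.finite_toSet
    rw [Set.ncard_coe_finset] at h3
    have h4 : (A : Set golayCode).ncard = Nat.card A := rfl
    omega
  have ha0 : a ≠ 0 := fun h => has (h ▸ h0)
  have ha1 : a ≠ allOne := by
    rintro rfl
    have := hcl 0 h0
    rw [zero_add] at this
    exact has this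
  rcases hA a haA ha0 ha1 with h2 | h2
  · exact ⟨a, haA, h2, has⟩
  · refine ⟨a + allOne, A.add_mem haA h1, ?_, ?_⟩
    · have := wt_add_allOne a
      omega
    · intro h3
      apply has
      have := hcl _ h3
      rwa [add_assoc, allOne_add_self, add_zero] at this

/-- two octads of `A` -/
theorem inter_card {a b : golayCode} (ha : a ∈ A) (hb : b ∈ A) (ha8 : wt a = 8) (hb8 : wt b = 8) (hne : a ≠ b) :
    (sup a ∩ sup b).card = 0 ∨ (sup a ∩ sup b).card = 4 := by
  have h2 := wt_add a b
  have h3 : a + b ≠ 0 := fun h => hne (add_eq_zero_iff.1 h)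
  have h4 : wt (a + b) ≤ 16 := by omega
  have h5 : a + b ≠ allOne := by
    intro h
    have h6 := wt_add_allOne (a + b)
    rw [h, allOne_add_self] at h6
    have h7 : wt (0 : golayCode) = 0 := by unfold wt; rw [sup_zero, Finset.card_empty]
    rw [h7] at h6
    rw [h] at h4
    omega
  rcases hA _ (A.add_mem ha hb) h3 h5 with h | h <;> omega

variable (hC : ∀ c ∈ C, ∀ a ∈ A, mulw c a ∈ golayCode)
include hC

/-- a word of `C` vanishing at one common point vanishes on the union -/
theorem disj_union {c a b : golayCode} (hc : c ∈ C) (ha : a ∈ A) (hb : b ∈ A) (ha8 : wt a = 8) (hb8 : wt b = 8)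
    {i : GolayPt} (hia : i ∈ sup a) (hib : i ∈ sup b) (hic : i ∉ sup c) :
    sup c ∩ sup a = ∅ ∧ sup c ∩ sup b = ∅ :=
  ⟨disj_of_mulw ha8 (hC c hc a ha) hia hic, disj_of_mulw hb8 (hC c hc b hb) hib hic⟩

/-- the complement of two disjoint octads -/
theorem third {a b : golayCode} (ha : a ∈ A) (hb : b ∈ A) (ha8 : wt a = 8) (hb8 : wt b = 8)
    (hab : (sup a ∩ sup b).card = 0) :
    a + b + allOne ∈ A ∧ wt (a + b + allOne) = 8 ∧ ∀ i, i ∈ sup (a + b + allOne) ↔ i ∉ sup a ∧ i ∉ sup b := by
  refine ⟨A.add_mem (A.add_mem ha hb) h1, ?_, ?_⟩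
  · have h2 := wt_add a b
    have h3 := wt_add_allOne (a + b)
    omega
  · intro i
    rw [sup_add_allOne, Finset.mem_compl, sup_add, Finset.mem_symmDiff]
    have h2 : ¬ (i ∈ sup a ∧ i ∈ sup b) := by
      rw [← Finset.mem_inter, Finset.card_eq_zero.1 hab]
      exact Finset.notMem_empty i
    tauto

/-- **Four classes.** -/
theorem card_le_eight (h : 8 ≤ Nat.card A) : Nat.card C ≤ 8 := by
  classical
  obtain ⟨a, haA, ha8, -⟩ := exists_octad h1 hA {0, allOne} (by
    have := Finset.card_le_two (a := (0 : golayCode)) (b := allOne)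
    omega) (by simp) (by
      intro x hx
      simp only [Finset.mem_insert, Finset.mem_singleton] at hx ⊢
      rcases hx with rfl | rfl
      · right; rw [zero_add]
      · left; exact allOne_add_self)
  obtain ⟨b, hbA, hb8, hb⟩ := exists_octad h1 hA {0, allOne, a, a + allOne} (by
    have := Finset.card_le_four (a := (0 : golayCode)) (b := allOne) (c := a) (d := a + allOne)
    omega) (by simp) (by
      intro x hx
      simp only [Finset.mem_insert, Finset.mem_singleton] at hx ⊢
      rcases hx with rfl | rfl | rfl | rfl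
      · right; left; rw [zero_add]
      · left; exact allOne_add_self
      · right; right; right; rfl
      · right; right; left; rw [add_assoc, allOne_add_self, add_zero])
  simp only [Finset.mem_insert, Finset.mem_singleton, not_or] at hb
  have hne : a ≠ b := fun h => hb.2.2.1 h.symm
  obtain ⟨pa, hpa⟩ : (sup a).Nonempty := by rw [← Finset.card_pos]; unfold wt at ha8; omega
  obtain ⟨pb, hpb⟩ : (sup b).Nonempty := by rw [← Finset.card_pos]; unfold wt at hb8; omega
  rcases inter_card h1 hA haA hbA ha8 hb8 hne with h0 | h4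
  · -- disjoint octads
    obtain ⟨hoA, ho8, ho⟩ := third h1 hA hC haA hbA ha8 hb8 h0
    obtain ⟨po, hpo⟩ : (sup (a + b + allOne)).Nonempty := by
      rw [← Finset.card_pos]; unfold wt at ho8; omega
    refine (card_le_of_eval C {pa, pb, po} ?_).trans ?_
    · intro c hc hv
      have k1 := disj_of_mulw ha8 (hC c hc a haA) hpa (hv pa (by simp))
      have k2 := disj_of_mulw hb8 (hC c hc b hbA) hpb (hv pb (by simp))
      have k3 := disj_of_mulw ho8 (hC c hc _ hoA) hpo (hv po (by simp))
      apply wt_eq_zero
      unfold wt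
      rw [Finset.card_eq_zero, Finset.eq_empty_iff_forall_notMem]
      intro i hi
      have e1 : i ∉ sup a := fun h => Finset.notMem_empty i (k1 ▸ Finset.mem_inter.2 ⟨hi, h⟩)
      have e2 : i ∉ sup b := fun h => Finset.notMem_empty i (k2 ▸ Finset.mem_inter.2 ⟨hi, h⟩)
      exact Finset.notMem_empty i (k3 ▸ Finset.mem_inter.2 ⟨hi, (ho i).2 ⟨e1, e2⟩⟩)
    · have : ({pa, pb, po} : Finset GolayPt).card ≤ 3 := Finset.card_le_three
      calc 2 ^ ({pa, pb, po} : Finset GolayPt).card ≤ 2 ^ 3 := Nat.pow_le_pow_right (by norm_num) this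
        _ = 8 := by norm_num
  · -- octads with four common points
    obtain ⟨p1, hp1⟩ : (sup a ∩ sup b).Nonempty := by rw [← Finset.card_pos]; omega
    rw [Finset.mem_inter] at hp1
    have hu : (sup a ∪ sup b).card = 12 := by
      have := Finset.card_union_add_card_inter (sup a) (sup b)
      have e1 : (sup a).card = wt a := rfl
      have e2 : (sup b).card = wt b := rfl
      omega
    have hR : (sup a ∪ sup b)ᶜ.card = 12 := by
      rw [Finset.card_compl, hu]
      rfl
    obtain ⟨p2, hp2⟩ : ((sup a ∪ sup b)ᶜ).Nonempty := by rw [← Finset.card_pos]; omega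
    have hR' : ((sup a ∪ sup b)ᶜ.erase p2).card = 11 := by rw [Finset.card_erase_of_mem hp2, hR]
    have key : ∀ c ∈ C, p1 ∉ sup c → p2 ∉ sup c → sup c ⊆ (sup a ∪ sup b)ᶜ.erase p2 := by
      intro c hc k1 k2 i hi
      obtain ⟨k3, k4⟩ := disj_union h1 hA hC hc haA hbA ha8 hb8 hp1.1 hp1.2 k1
      rw [Finset.mem_erase]
      refine ⟨fun h => k2 (h ▸ hi), ?_⟩
      rw [Finset.mem_compl, Finset.mem_union]
      rintro (h | h)
      · exact Finset.notMem_empty i (k3 ▸ Finset.mem_inter.2 ⟨hi, h⟩)
      · exact Finset.notMem_empty i (k4 ▸ Finset.mem_inter.2 ⟨hi, h⟩)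
    by_cases hex : ∃ c ∈ C, p1 ∉ sup c ∧ p2 ∉ sup c ∧ c ≠ 0
    · obtain ⟨c, hc, hc1, hc2, hc0⟩ := hex
      obtain ⟨p3, hp3⟩ : (sup c).Nonempty := by
        rw [← Finset.card_pos]
        exact Nat.pos_of_ne_zero (wt_ne_zero hc0)
      refine (card_le_of_eval C {p1, p2, p3} ?_).trans ?_
      · intro d hd hv
        by_contra hd0
        have e : c = d := eq_of_small (by rw [hR']) (key c hc hc1 hc2)
          (key d hd (hv p1 (by simp)) (hv p2 (by simp))) hc0 hd0
        exact hv p3 (by simp) (e ▸ hp3)
      · have : ({p1, p2, p3} : Finset GolayPt).card ≤ 3 := Finset.card_le_three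
        calc 2 ^ ({p1, p2, p3} : Finset GolayPt).card ≤ 2 ^ 3 := Nat.pow_le_pow_right (by norm_num) this
          _ = 8 := by norm_num
    · push Not at hex
      refine (card_le_of_eval C {p1, p2} ?_).trans ?_
      · intro d hd hv
        exact hex d hd (hv p1 (by simp)) (hv p2 (by simp))
      · have : ({p1, p2} : Finset GolayPt).card ≤ 2 := Finset.card_le_two
        calc 2 ^ ({p1, p2} : Finset GolayPt).card ≤ 2 ^ 2 := Nat.pow_le_pow_right (by norm_num) this
          _ ≤ 8 := by norm_num

/-- two disjoint octads and a third one meeting both -/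
theorem card_le_four_aux {a b d : golayCode} (haA : a ∈ A) (hbA : b ∈ A) (hdA : d ∈ A) (ha8 : wt a = 8)
    (hb8 : wt b = 8) (hd8 : wt d = 8) (h0 : (sup a ∩ sup b).card = 0) {i j : GolayPt} (hia : i ∈ sup a)
    (hid : i ∈ sup d) (hjb : j ∈ sup b) (hjd : j ∈ sup d) : Nat.card C ≤ 4 := by
  classical
  obtain ⟨hoA, ho8, ho⟩ := third h1 hA hC haA hbA ha8 hb8 h0
  obtain ⟨po, hpo⟩ : (sup (a + b + allOne)).Nonempty := by
    rw [← Finset.card_pos]; unfold wt at ho8; omega
  refine (card_le_of_eval C {i, po} ?_).trans ?_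
  · intro c hc hv
    have k1 := disj_of_mulw ha8 (hC c hc a haA) hia (hv i (by simp))
    have k4 := disj_of_mulw hd8 (hC c hc d hdA) hid (hv i (by simp))
    have k2 := disj_of_mulw hb8 (hC c hc b hbA) hjb
      (fun h => Finset.notMem_empty j (k4 ▸ Finset.mem_inter.2 ⟨h, hjd⟩))
    have k3 := disj_of_mulw ho8 (hC c hc _ hoA) hpo (hv po (by simp))
    apply wt_eq_zero
    unfold wt
    rw [Finset.card_eq_zero, Finset.eq_empty_iff_forall_notMem]
    intro i hi
    have e1 : i ∉ sup a := fun h => Finset.notMem_empty i (k1 ▸ Finset.mem_inter.2 ⟨hi, h⟩)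
    have e2 : i ∉ sup b := fun h => Finset.notMem_empty i (k2 ▸ Finset.mem_inter.2 ⟨hi, h⟩)
    exact Finset.notMem_empty i (k3 ▸ Finset.mem_inter.2 ⟨hi, (ho i).2 ⟨e1, e2⟩⟩)
  · have : ({i, po} : Finset GolayPt).card ≤ 2 := Finset.card_le_two
    calc 2 ^ ({i, po} : Finset GolayPt).card ≤ 2 ^ 2 := Nat.pow_le_pow_right (by norm_num) this
      _ = 4 := by norm_num

/-- **Eight classes.** -/
theorem card_le_four (h : 16 ≤ Nat.card A) : Nat.card C ≤ 4 := by
  classical
  by_cases htrio : ∃ a ∈ A, ∃ b ∈ A, wt a = 8 ∧ wt b = 8 ∧ (sup a ∩ sup b).card = 0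
  · obtain ⟨a, haA, b, hbA, ha8, hb8, h0⟩ := htrio
    obtain ⟨hoA, ho8, ho⟩ := third h1 hA hC haA hbA ha8 hb8 h0
    set o := a + b + allOne with ho_def
    obtain ⟨d, hdA, hd8, hd⟩ := exists_octad h1 hA {0, allOne, a, a + allOne, b, b + allOne, o, o + allOne} (by
      refine lt_of_le_of_lt (Finset.card_insert_le _ _) ?_
      have k1 := Finset.card_insert_le allOne {a, a + allOne, b, b + allOne, o, o + allOne}
      have k2 := Finset.card_insert_le a {a + allOne, b, b + allOne, o, o + allOne}
      have k3 := Finset.card_le_five (a := a + allOne) (b := b) (c := b + allOne) (d := o) (e := o + allOne)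
      omega) (by simp) (by
        intro x hx
        have e : ∀ y : golayCode, y + allOne + allOne = y := fun y => by
          rw [add_assoc, allOne_add_self, add_zero]
        simp only [Finset.mem_insert, Finset.mem_singleton] at hx ⊢
        rcases hx with rfl | rfl | rfl | rfl | rfl | rfl | rfl | rfl
        · simp
        · simp [allOne_add_self]
        · simp
        · simp [e]
        · simp
        · simp [e]
        · simp
        · simp [e])
    simp only [Finset.mem_insert, Finset.mem_singleton, not_or] at hd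
    have ca := inter_card h1 hA hdA haA hd8 ha8 hd.2.2.1
    have cb := inter_card h1 hA hdA hbA hd8 hb8 hd.2.2.2.2.1
    have co := inter_card h1 hA hdA hoA hd8 ho8 hd.2.2.2.2.2.2.1
    have hsum : (sup d).card ≤ (sup d ∩ sup a).card + (sup d ∩ sup b).card + (sup d ∩ sup o).card := by
      have e : sup d ⊆ (sup d ∩ sup a) ∪ (sup d ∩ sup b) ∪ (sup d ∩ sup o) := by
        intro i hi
        simp only [Finset.mem_union, Finset.mem_inter]
        by_cases k1 : i ∈ sup a
        · exact Or.inl (Or.inl ⟨hi, k1⟩)
        · by_cases k2 : i ∈ sup b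
          · exact Or.inl (Or.inr ⟨hi, k2⟩)
          · exact Or.inr ⟨hi, (ho i).2 ⟨k1, k2⟩⟩
      refine (Finset.card_le_card e).trans ((Finset.card_union_le _ _).trans ?_)
      have := Finset.card_union_le (sup d ∩ sup a) (sup d ∩ sup b)
      omega
    have hd8' : (sup d).card = 8 := hd8
    have ne_of : ∀ {x : golayCode}, (sup d ∩ sup x).card ≠ 0 → ∃ i, i ∈ sup x ∧ i ∈ sup d := by
      intro x hx
      obtain ⟨i, hi⟩ := Finset.card_pos.1 (Nat.pos_of_ne_zero hx)
      rw [Finset.mem_inter] at hi
      exact ⟨i, hi.2, hi.1⟩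
    have hao : (sup a ∩ sup o).card = 0 := by
      rw [Finset.card_eq_zero, Finset.eq_empty_iff_forall_notMem]
      intro i hi
      rw [Finset.mem_inter] at hi
      exact ((ho i).1 hi.2).1 hi.1
    have hbo : (sup b ∩ sup o).card = 0 := by
      rw [Finset.card_eq_zero, Finset.eq_empty_iff_forall_notMem]
      intro i hi
      rw [Finset.mem_inter] at hi
      exact ((ho i).1 hi.2).2 hi.1
    by_cases za : (sup d ∩ sup a).card = 0
    · obtain ⟨i, hi1, hi2⟩ := ne_of (x := b) (by omega)
      obtain ⟨j, hj1, hj2⟩ := ne_of (x := o) (by omega)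
      exact card_le_four_aux h1 hA hC hbA hoA hdA hb8 ho8 hd8 hbo hi1 hi2 hj1 hj2
    · obtain ⟨i, hi1, hi2⟩ := ne_of za
      by_cases zb : (sup d ∩ sup b).card = 0
      · obtain ⟨j, hj1, hj2⟩ := ne_of (x := o) (by omega)
        exact card_le_four_aux h1 hA hC haA hoA hdA ha8 ho8 hd8 hao hi1 hi2 hj1 hj2
      · obtain ⟨j, hj1, hj2⟩ := ne_of zb
        exact card_le_four_aux h1 hA hC haA hbA hdA ha8 hb8 hd8 h0 hi1 hi2 hj1 hj2
  · push Not at htrio
    have hfour : ∀ {a b : golayCode}, a ∈ A → b ∈ A → wt a = 8 → wt b = 8 → a ≠ b → (sup a ∩ sup b).card = 4 :=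
      fun ha hb ha8 hb8 hne => (inter_card h1 hA ha hb ha8 hb8 hne).resolve_left (htrio _ ha _ hb ha8 hb8)
    obtain ⟨a, haA, ha8, -⟩ := exists_octad h1 hA {0, allOne} (by
      have := Finset.card_le_two (a := (0 : golayCode)) (b := allOne)
      omega) (by simp) (by
        intro x hx
        simp only [Finset.mem_insert, Finset.mem_singleton] at hx ⊢
        rcases hx with rfl | rfl
        · right; rw [zero_add]
        · left; exact allOne_add_self)
    obtain ⟨b, hbA, hb8, hb⟩ := exists_octad h1 hA {0, allOne, a, a + allOne} (by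
      have := Finset.card_le_four (a := (0 : golayCode)) (b := allOne) (c := a) (d := a + allOne)
      omega) (by simp) (by
        intro x hx
        simp only [Finset.mem_insert, Finset.mem_singleton] at hx ⊢
        rcases hx with rfl | rfl | rfl | rfl
        · right; left; rw [zero_add]
        · left; exact allOne_add_self
        · right; right; right; rfl
        · right; right; left; rw [add_assoc, allOne_add_self, add_zero])
    simp only [Finset.mem_insert, Finset.mem_singleton, not_or] at hb
    have hne : a ≠ b := fun h => hb.2.2.1 h.symm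
    have hab := hfour haA hbA ha8 hb8 hne
    set o := a + b with ho_def
    have hoA : o ∈ A := A.add_mem haA hbA
    have ho8 : wt o = 8 := by
      have := wt_add a b
      rw [← ho_def] at this
      omega
    obtain ⟨d, hdA, hd8, hd⟩ := exists_octad h1 hA {0, allOne, a, a + allOne, b, b + allOne, o, o + allOne} (by
      refine lt_of_le_of_lt (Finset.card_insert_le _ _) ?_
      have k1 := Finset.card_insert_le allOne {a, a + allOne, b, b + allOne, o, o + allOne}
      have k2 := Finset.card_insert_le a {a + allOne, b, b + allOne, o, o + allOne}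
      have k3 := Finset.card_le_five (a := a + allOne) (b := b) (c := b + allOne) (d := o) (e := o + allOne)
      omega) (by simp) (by
        intro x hx
        have e : ∀ y : golayCode, y + allOne + allOne = y := fun y => by
          rw [add_assoc, allOne_add_self, add_zero]
        simp only [Finset.mem_insert, Finset.mem_singleton] at hx ⊢
        rcases hx with rfl | rfl | rfl | rfl | rfl | rfl | rfl | rfl
        · simp
        · simp [allOne_add_self]
        · simp
        · simp [e]
        · simp
        · simp [e]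
        · simp
        · simp [e])
    simp only [Finset.mem_insert, Finset.mem_singleton, not_or] at hd
    have ca := hfour hdA haA hd8 ha8 hd.2.2.1
    have cb := hfour hdA hbA hd8 hb8 hd.2.2.2.2.1
    have co := hfour hdA hoA hd8 ho8 hd.2.2.2.2.2.2.1
    -- a point of `d` outside the union
    obtain ⟨p2, hp2d, hp2⟩ : ∃ p ∈ sup d, p ∉ sup a ∪ sup b := by
      by_contra hn
      push Not at hn
      have hoS : sup o = symmDiff (sup a) (sup b) := sup_add a b
      have e : sup d = (sup d ∩ sup a) ∪ (sup d ∩ sup b) := by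
        ext i
        simp only [Finset.mem_union, Finset.mem_inter]
        constructor
        · intro hi
          rcases Finset.mem_union.1 (hn i hi) with k | k
          · exact Or.inl ⟨hi, k⟩
          · exact Or.inr ⟨hi, k⟩
        · rintro (k | k) <;> exact k.1
      have e1 := Finset.card_union_add_card_inter (sup d ∩ sup a) (sup d ∩ sup b)
      rw [← e] at e1
      have e2 : (sup d ∩ sup a) ∩ (sup d ∩ sup b) = ∅ := by
        rw [← Finset.card_eq_zero]
        have hd8' : (sup d).card = 8 := hd8
        omega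
      have e3 : sup d ⊆ sup o := by
        intro i hi
        rw [hoS, Finset.mem_symmDiff]
        have e4 : i ∉ (sup d ∩ sup a) ∩ (sup d ∩ sup b) := by rw [e2]; exact Finset.notMem_empty i
        simp only [Finset.mem_inter, not_and] at e4
        rcases Finset.mem_union.1 (hn i hi) with k | k
        · exact Or.inl ⟨k, fun k' => e4 ⟨hi, k⟩ hi k'⟩
        · exact Or.inr ⟨k, fun k' => e4 ⟨hi, k'⟩ hi k⟩
      have e5 : sup d ∩ sup o = sup d := Finset.inter_eq_left.2 e3
      rw [e5] at co
      have hd8' : (sup d).card = 8 := hd8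
      omega
    obtain ⟨p1, hp1⟩ : (sup a ∩ sup b).Nonempty := by rw [← Finset.card_pos]; omega
    rw [Finset.mem_inter] at hp1
    obtain ⟨p0, hp0⟩ : (sup d ∩ sup a).Nonempty := by rw [← Finset.card_pos]; omega
    rw [Finset.mem_inter] at hp0
    have hu : (sup a ∪ sup b).card = 12 := by
      have := Finset.card_union_add_card_inter (sup a) (sup b)
      have e1 : (sup a).card = wt a := rfl
      have e2 : (sup b).card = wt b := rfl
      omega
    have hR : (sup a ∪ sup b)ᶜ.card = 12 := by
      rw [Finset.card_compl, hu]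
      rfl
    have hR' : ((sup a ∪ sup b)ᶜ.erase p2).card = 11 := by
      rw [Finset.card_erase_of_mem (Finset.mem_compl.2 hp2), hR]
    have key : ∀ c ∈ C, p1 ∉ sup c → sup c ⊆ (sup a ∪ sup b)ᶜ.erase p2 := by
      intro c hc k1 i hi
      obtain ⟨k3, k4⟩ := disj_union h1 hA hC hc haA hbA ha8 hb8 hp1.1 hp1.2 k1
      have k5 : sup c ∩ sup d = ∅ := disj_of_mulw hd8 (hC c hc d hdA) hp0.1
        (fun h => Finset.notMem_empty p0 (k3 ▸ Finset.mem_inter.2 ⟨h, hp0.2⟩))
      rw [Finset.mem_erase]
      refine ⟨fun h => Finset.notMem_empty i (k5 ▸ Finset.mem_inter.2 ⟨hi, h ▸ hp2d⟩), ?_⟩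
      rw [Finset.mem_compl, Finset.mem_union]
      rintro (h | h)
      · exact Finset.notMem_empty i (k3 ▸ Finset.mem_inter.2 ⟨hi, h⟩)
      · exact Finset.notMem_empty i (k4 ▸ Finset.mem_inter.2 ⟨hi, h⟩)
    by_cases hex : ∃ c ∈ C, p1 ∉ sup c ∧ c ≠ 0
    · obtain ⟨c, hc, hc1, hc0⟩ := hex
      obtain ⟨p3, hp3⟩ : (sup c).Nonempty := by
        rw [← Finset.card_pos]
        exact Nat.pos_of_ne_zero (wt_ne_zero hc0)
      refine (card_le_of_eval C {p1, p3} ?_).trans ?_
      · intro x hx hv
        by_contra hx0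
        have e : c = x := eq_of_small (by rw [hR']) (key c hc hc1) (key x hx (hv p1 (by simp))) hc0 hx0
        exact hv p3 (by simp) (e ▸ hp3)
      · have : ({p1, p3} : Finset GolayPt).card ≤ 2 := Finset.card_le_two
        calc 2 ^ ({p1, p3} : Finset GolayPt).card ≤ 2 ^ 2 := Nat.pow_le_pow_right (by norm_num) this
          _ = 4 := by norm_num
    · push Not at hex
      refine (card_le_of_eval C {p1} ?_).trans ?_
      · intro x hx hv
        exact hex x hx (hv p1 (by simp))
      · rw [Finset.card_singleton]; norm_num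

end

end Cfsg.Agent.R2.H4.Mon.Golay
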