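import Cfsg.Agent.R2.H4.Mon.Golay
import Cfsg.Agent.MonsterU.AmalInf
import Cfsg.Agent.H848.OctBase

/-!
# Abelian subgroups of the centraliser of a central involution: the key lemma

`Chart Q z eta pi`, `Z` an abelian subgroup of `C(z)` containing `y`, `eta y = f0`.  `RR h` the inverse image of the
group `E = 2^11` of the sign changes.  If all elements of `Z ∩ RR h` outside `Q` are over octads, then
`|Z ∩ RR : Z ∩ Q| ≥ 4` implies `|Z ∩ Q : Z ∩ EE| ≤ 4` and `|Z ∩ RR : Z ∩ Q| ≥ 8` implies `|Z ∩ Q : Z ∩ EE| ≤ 2`.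
-/

set_option autoImplicit false
set_option linter.unusedSectionVars false

open Cfsg

namespace Cfsg.Agent.R2.H4.Mon.KeyGrp

open Cfsg.Agent.SporadicA
open Cfsg.Agent.SporadicA.Co0Mono (signCo0 signCo0_smul signMap_apply sgn_one sgn_zero signCo0_add)
open Cfsg.Agent.SporadicA.Co1Simple (allOne)
open Cfsg.Agent.SporadicStructure.LeechBase (zmod2_cases)
open Cfsg.Agent.CoOneType.SignFacts
open Cfsg.Agent.CoOneType.CoOneE (pr E mem_E pr_sign_eq_iff wt_of_isConj allOne_add_self)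
open Cfsg.Agent.MonsterU.Lam2 (L2 cl cl_surjective bf qf cl_eq smul_cl)
open Cfsg.Agent.MonsterU.CoFrame
open Cfsg.Agent.MonsterU.CoFrameL2
open Cfsg.Agent.MonsterU.CoFrameIrr (hwHom)
open Cfsg.Agent.MonsterU.AmalGen (pre mem_pre EE pre_le comm_y)
open Cfsg.Agent.MonsterU.Ch
open Cfsg.Agent.H848.Oct (eps)
open Cfsg.Agent.R2.H4.Mon.Golay
open Cfsg.Spor (Co1)

theorem eps_add (c d : golayCode) : eps (c + d) = eps c * eps d := by
  rw [eps, signCo0_add, map_mul]; rfl

theorem eps_zero : eps 0 = 1 := by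
  rw [eps, Cfsg.Agent.SporadicA.Co0Mono.signCo0_zero, map_one]

theorem eps_eq_iff {c d : golayCode} : eps c = eps d ↔ d = c ∨ d = c + allOne := pr_sign_eq_iff c d

theorem eps_allOne : eps allOne = 1 := by
  rw [← eps_zero, eps_eq_iff]
  right
  exact allOne_add_self.symm

theorem eps_add_allOne (c : golayCode) : eps (c + allOne) = eps c := by
  rw [eps_add, eps_allOne, mul_one]

/-- a sign change fixing the class of a vector of `V23` -/
theorem mulw_mem {d : golayCode} {v : leechLattice} (hv : v ∈ V23) (h : eps d • cl v = cl v) :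
    mulw d (hwHom ⟨v, hv⟩) ∈ golayCode := by
  have h1 : cl (signCo0 d • v) = cl v := h
  obtain ⟨w, hw'⟩ := (cong_iff_cl _ _).2 h1
  have h2 : ∀ i, Cfsg.Agent.SporadicA.Co0Mono.sgn ((d : GolayPt → ZMod 2) i) * (v : GolayPt → ℤ) i =
      (v : GolayPt → ℤ) i + 2 * (w : GolayPt → ℤ) i := by
    intro i
    have h3 := congrArg (fun u : leechLattice => (u : GolayPt → ℤ) i) hw'
    rw [← signMap_apply, ← signCo0_smul]
    refine h3.trans ?_
    show (v : GolayPt → ℤ) i + (2 : ℕ) • (w : GolayPt → ℤ) i = _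
    rw [nsmul_eq_mul]; rfl
  have h4 : ∀ i, (w : GolayPt → ℤ) i = if (d : GolayPt → ZMod 2) i = 1 then -(v : GolayPt → ℤ) i else 0 := by
    intro i
    have h5 := h2 i
    rcases zmod2_cases ((d : GolayPt → ZMod 2) i) with e | e
    · rw [e, sgn_zero] at h5
      rw [e, if_neg (by decide)]
      omega
    · rw [e, sgn_one] at h5
      rw [e, if_pos rfl]
      omega
  have hw23 : w ∈ V23 := by
    rw [mem_V23]
    intro i
    rw [h4 i]
    split_ifs
    · exact (dvd_neg).2 (hv i)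
    · exact dvd_zero _
  have h6 : hw w = mulw d (hwHom ⟨v, hv⟩) := by
    funext i
    show hw w i = (d : GolayPt → ZMod 2) i * hw v i
    rw [hw_apply, hw_apply, h4 i]
    obtain ⟨k, hk⟩ := hv i
    rcases zmod2_cases ((d : GolayPt → ZMod 2) i) with e | e
    · rw [e, if_neg (by decide)]
      simp
    · rw [e, if_pos rfl, hk]
      have e1 : -(2 * k) / 2 = -k := by omega
      have e2 : 2 * k / 2 = k := by omega
      rw [e1, e2, one_mul, Int.cast_neg]
      exact CharTwo.neg_eq _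
  rw [← h6]
  exact hw_mem hw23

/-- the word of a vector of `V12` -/
theorem mem_W12_of_hw {v w : leechLattice} (hv : v ∈ V23) (hw' : w ∈ V23)
    (h : hwHom ⟨v, hv⟩ = hwHom ⟨w, hw'⟩ ∨ hwHom ⟨v, hv⟩ = hwHom ⟨w, hw'⟩ + allOne) : cl v - cl w ∈ W12 := by
  rw [← map_sub, cl_mem_W12]
  have h23 : v - w ∈ V23 := V23.sub_mem hv hw'
  rw [mem_V12_iff_hw h23]
  have h1 : hwHom ⟨v - w, h23⟩ = hwHom ⟨v, hv⟩ + hwHom ⟨w, hw'⟩ := by
    have h2 : hwHom ⟨v, hv⟩ = hwHom ⟨v - w, h23⟩ + hwHom ⟨w, hw'⟩ := by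
      rw [← map_add]
      congr 1
      apply Subtype.ext
      show v = v - w + w
      abel
    rw [h2, add_assoc, Golay.add_self, add_zero]
  have h3 : hw (v - w) = ((hwHom ⟨v - w, h23⟩ : golayCode) : GolayPt → ZMod 2) := rfl
  rw [h3, h1]
  rcases h with h | h
  · left; rw [h, Golay.add_self]; rfl
  · right
    rw [h, add_comm (hwHom ⟨w, hw'⟩) allOne, add_assoc, Golay.add_self, add_zero]
    rfl

variable {G : Type*} [Group G] {Q : Subgroup G} {z : G} {eta : G → L2}
  {pi : Subgroup.centralizer ({z} : Set G) →* Co1}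

/-- the inverse image of the group of the sign changes -/
def RR (pi : Subgroup.centralizer ({z} : Set G) →* Co1) : Subgroup G where
  carrier := {a | ∃ hc : a ∈ Subgroup.centralizer ({z} : Set G), pi ⟨a, hc⟩ ∈ E}
  one_mem' := ⟨Subgroup.one_mem _, by
    have : pi ⟨1, Subgroup.one_mem _⟩ = 1 := map_one pi
    rw [this]; exact E.one_mem⟩
  mul_mem' := by
    rintro a b ⟨ha, ha'⟩ ⟨hb, hb'⟩
    refine ⟨Subgroup.mul_mem _ ha hb, ?_⟩
    have : pi ⟨a * b, Subgroup.mul_mem _ ha hb⟩ = pi ⟨a, ha⟩ * pi ⟨b, hb⟩ := by rw [← map_mul]; rfl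
    rw [this]; exact E.mul_mem ha' hb'
  inv_mem' := by
    rintro a ⟨ha, ha'⟩
    refine ⟨Subgroup.inv_mem _ ha, ?_⟩
    have : pi ⟨a⁻¹, Subgroup.inv_mem _ ha⟩ = (pi ⟨a, ha⟩)⁻¹ := by rw [← map_inv]; rfl
    rw [this]; exact E.inv_mem ha'

theorem mem_RR {a : G} : a ∈ RR pi ↔ ∃ hc : a ∈ Subgroup.centralizer ({z} : Set G), pi ⟨a, hc⟩ ∈ E := Iff.rfl

/-- the words of the sign changes of a subgroup -/
def AC (pi : Subgroup.centralizer ({z} : Set G) →* Co1) (Z : Subgroup G) : AddSubgroup golayCode where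
  carrier := {d | ∃ a : Subgroup.centralizer ({z} : Set G), (a : G) ∈ Z ∧ pi a = eps d}
  zero_mem' := ⟨1, Z.one_mem, by rw [map_one, eps_zero]⟩
  add_mem' := by
    rintro c d ⟨a, ha, ha'⟩ ⟨b, hb, hb'⟩
    exact ⟨a * b, Z.mul_mem ha hb, by rw [map_mul, eps_add, ha', hb']⟩
  neg_mem' := by
    rintro c ⟨a, ha, ha'⟩
    refine ⟨a, ha, ?_⟩
    have : -c = c := by
      have := Golay.add_self c
      exact (eq_neg_of_add_eq_zero_left this).symm
    rw [this, ha']

theorem mem_AC {Z : Subgroup G} {d : golayCode} :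
    d ∈ AC pi Z ↔ ∃ a : Subgroup.centralizer ({z} : Set G), (a : G) ∈ Z ∧ pi a = eps d := Iff.rfl

theorem allOne_mem_AC {Z : Subgroup G} : allOne ∈ AC pi Z := ⟨1, Z.one_mem, by rw [map_one, eps_allOne]⟩

section

/-- the words of the elements of `Z ∩ Q` -/
def BC (h : Chart Q z eta pi) (Z : Subgroup G) : AddSubgroup golayCode where
  carrier := {c | ∃ n, n ∈ Z ∧ n ∈ Q ∧ ∃ (v : leechLattice) (hv : v ∈ V23), cl v = eta n ∧ hwHom ⟨v, hv⟩ = c}
  zero_mem' := ⟨1, Z.one_mem, Q.one_mem, 0, V23.zero_mem, by rw [map_zero, h.eta_one], map_zero hwHom⟩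
  add_mem' := by
    rintro c d ⟨m, hm, hm', v, hv, hv', rfl⟩ ⟨n, hn, hn', w, hw', hw'', rfl⟩
    refine ⟨m * n, Z.mul_mem hm hn, Q.mul_mem hm' hn', v + w, V23.add_mem hv hw', ?_, ?_⟩
    · rw [map_add, hv', hw'', h.eta_mul m hm' n hn']
    · rw [← map_add]; rfl
  neg_mem' := by
    rintro c ⟨m, hm, hm', v, hv, hv', rfl⟩
    refine ⟨m, hm, hm', v, hv, hv', ?_⟩
    exact eq_neg_of_add_eq_zero_left (Golay.add_self _)

theorem mem_BC (h : Chart Q z eta pi) {Z : Subgroup G} {c : golayCode} :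
    c ∈ BC h Z ↔ ∃ n, n ∈ Z ∧ n ∈ Q ∧ ∃ (v : leechLattice) (hv : v ∈ V23), cl v = eta n ∧ hwHom ⟨v, hv⟩ = c :=
  Iff.rfl

theorem exists_hw_allOne : ∃ (v : leechLattice) (hv : v ∈ V23), cl v = 0 ∧ hwHom ⟨v, hv⟩ = allOne := by
  refine ⟨(2 : ℕ) • u0, V12_le_V23 (two_smul_mem_V12 _), Cfsg.Agent.MonsterU.Lam2.cl_two _, ?_⟩
  apply Subtype.ext
  show hw ((2 : ℕ) • u0) = 1
  exact Cfsg.Agent.MonsterU.CoFrame23.hw_two_u0

theorem allOne_mem_BC (h : Chart Q z eta pi) {Z : Subgroup G} : allOne ∈ BC h Z := by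
  obtain ⟨v, hv, h0, h1⟩ := exists_hw_allOne
  exact ⟨1, Z.one_mem, Q.one_mem, v, hv, by rw [h0, h.eta_one], h1⟩

/-- **The words of commuting elements.** -/
theorem mulw_mem_of_comm (h : Chart Q z eta pi) {Z : Subgroup G} (hZ : ∀ a ∈ Z, ∀ b ∈ Z, a * b = b * a) :
    ∀ c ∈ BC h Z, ∀ d ∈ AC pi Z, mulw c d ∈ golayCode := by
  rintro _ ⟨n, hnZ, hnQ, v, hv, hv', rfl⟩ d ⟨a, haZ, ha⟩
  rw [mulw_comm]
  apply mulw_mem hv
  rw [hv', ← ha, ← h.eta_conj a n hnQ, hZ _ haZ _ hnZ, mul_inv_cancel_right]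

/-- lower bound of the words of the sign changes -/
theorem card_AC (h : Chart Q z eta pi) {Z : Subgroup G} [Finite Z] :
    2 * Nat.card (Z ⊓ RR pi : Subgroup G) ≤ Nat.card (AC pi Z) * Nat.card (Z ⊓ Q : Subgroup G) := by
  classical
  let f : (Z ⊓ RR pi : Subgroup G) →* Co1 :=
    { toFun := fun a => pi ⟨a, a.2.2.1⟩
      map_one' := map_one pi
      map_mul' := fun a b => by rw [← map_mul]; rfl }
  have hfin : Finite (Z ⊓ RR pi : Subgroup G) :=
    Finite.of_injective (Subgroup.inclusion (inf_le_left : Z ⊓ RR pi ≤ Z)) (Subgroup.inclusion_injective _)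
  have hfin2 : Finite (Z ⊓ Q : Subgroup G) :=
    Finite.of_injective (Subgroup.inclusion (inf_le_left : Z ⊓ Q ≤ Z)) (Subgroup.inclusion_injective _)
  have e1 : Nat.card (Z ⊓ RR pi : Subgroup G) = Nat.card f.ker * Nat.card f.range := by
    rw [← Subgroup.index_ker, Subgroup.card_mul_index]
  have e2 : Nat.card f.ker ≤ Nat.card (Z ⊓ Q : Subgroup G) := by
    have key : ∀ a : f.ker, ((a : (Z ⊓ RR pi : Subgroup G)) : G) ∈ (Z ⊓ Q : Subgroup G) := fun a =>
      ⟨(a : (Z ⊓ RR pi : Subgroup G)).2.1, (h.pi_eq_one _).1 (MonoidHom.mem_ker.1 a.2)⟩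
    refine Nat.card_le_card_of_injective (fun a => (⟨_, key a⟩ : (Z ⊓ Q : Subgroup G))) ?_
    intro a b hab
    have hab' := congrArg (fun x : (Z ⊓ Q : Subgroup G) => (x : G)) hab
    exact Subtype.ext (Subtype.ext hab')
  have e3 : 2 * Nat.card f.range ≤ Nat.card (AC pi Z) := by
    have hch : ∀ s : f.range, ∃ d : golayCode, d ∈ AC pi Z ∧ (s : Co1) = eps d := by
      rintro ⟨_, a, rfl⟩
      obtain ⟨d, hd⟩ := (mem_E _).1 a.2.2.2
      exact ⟨d, ⟨⟨a, a.2.2.1⟩, a.2.1, hd⟩, hd⟩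
    choose w hw1 hw2 using hch
    let g : Bool × f.range → AC pi Z := fun p =>
      ⟨w p.2 + (if p.1 then allOne else 0), (AC pi Z).add_mem (hw1 p.2) (by
        split_ifs
        · exact allOne_mem_AC
        · exact (AC pi Z).zero_mem)⟩
    have hg : Function.Injective g := by
      rintro ⟨b, s⟩ ⟨b', s'⟩ hbs
      have h1 : w s + (if b then allOne else 0) = w s' + (if b' then allOne else 0) := congrArg Subtype.val hbs
      have h2 : eps (w s) = eps (w s') := by
        have h3 : ∀ (x : golayCode) (b : Bool), eps (x + (if b then allOne else 0)) = eps x := by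
          intro x b
          cases b
          · simp
          · simp [eps_add_allOne]
        rw [← h3 (w s) b, h1, h3]
      have h3 : s = s' := Subtype.ext (by rw [hw2, hw2, h2])
      subst h3
      have h4 : (if b then allOne else 0 : golayCode) = if b' then allOne else 0 := add_left_cancel h1
      have h5 : (allOne : golayCode) ≠ 0 := by
        intro h
        have := congrArg (fun c : golayCode => (c : GolayPt → ZMod 2) none) h
        exact absurd this (by decide)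
      cases b <;> cases b' <;> simp_all
    have h1 := Nat.card_le_card_of_injective g hg
    rwa [Nat.card_prod, Nat.card_eq_fintype_card (α := Bool), Fintype.card_bool] at h1
  calc 2 * Nat.card (Z ⊓ RR pi : Subgroup G) = (2 * Nat.card f.range) * Nat.card f.ker := by rw [e1]; ring
    _ ≤ Nat.card (AC pi Z) * Nat.card (Z ⊓ Q : Subgroup G) := Nat.mul_le_mul e3 e2

variable {y : G}

/-- bound of the index by the words of `Z ∩ Q` -/
theorem card_BC (h : Chart Q z eta pi) {Z : Subgroup G} [Finite Z] (hyQ : y ∈ Q) (hy : eta y = f0) (hZy : ∀ a ∈ Z, a * y = y * a) :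
    2 * Nat.card (Z ⊓ Q : Subgroup G) ≤ Nat.card (BC h Z) * Nat.card (Z ⊓ EE h : Subgroup G) := by
  classical
  let f : (Z ⊓ Q : Subgroup G) →* Multiplicative (L2 ⧸ W12) :=
    { toFun := fun a => Multiplicative.ofAdd (QuotientAddGroup.mk (eta a))
      map_one' := by
        show Multiplicative.ofAdd (QuotientAddGroup.mk (eta 1)) = 1
        rw [h.eta_one]; rfl
      map_mul' := fun a b => by
        show Multiplicative.ofAdd (QuotientAddGroup.mk (eta ((a : G) * b))) = _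
        rw [h.eta_mul _ a.2.2 _ b.2.2]; rfl }
  have hfin : Finite (Z ⊓ EE h : Subgroup G) :=
    Finite.of_injective (Subgroup.inclusion (inf_le_left : Z ⊓ EE h ≤ Z)) (Subgroup.inclusion_injective _)
  have hfin2 : Finite (Z ⊓ Q : Subgroup G) :=
    Finite.of_injective (Subgroup.inclusion (inf_le_left : Z ⊓ Q ≤ Z)) (Subgroup.inclusion_injective _)
  have e1 : Nat.card (Z ⊓ Q : Subgroup G) = Nat.card f.ker * Nat.card f.range := by
    rw [← Subgroup.index_ker, Subgroup.card_mul_index]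
  have e2 : Nat.card f.ker ≤ Nat.card (Z ⊓ EE h : Subgroup G) := by
    have key : ∀ a : f.ker, ((a : (Z ⊓ Q : Subgroup G)) : G) ∈ (Z ⊓ EE h : Subgroup G) := by
      intro a
      refine ⟨(a : (Z ⊓ Q : Subgroup G)).2.1, (a : (Z ⊓ Q : Subgroup G)).2.2, ?_⟩
      have h1 : f a = 1 := MonoidHom.mem_ker.1 a.2
      exact (QuotientAddGroup.eq_zero_iff _).1 h1
    refine Nat.card_le_card_of_injective (fun a => (⟨_, key a⟩ : (Z ⊓ EE h : Subgroup G))) ?_
    intro a b hab
    have hab' := congrArg (fun x : (Z ⊓ EE h : Subgroup G) => (x : G)) hab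
    exact Subtype.ext (Subtype.ext hab')
  have e3 : 2 * Nat.card f.range ≤ Nat.card (BC h Z) := by
    have hch : ∀ s : f.range, ∃ (v : leechLattice) (hv : v ∈ V23), hwHom ⟨v, hv⟩ ∈ BC h Z ∧
        (s : Multiplicative (L2 ⧸ W12)) = Multiplicative.ofAdd (QuotientAddGroup.mk (cl v)) := by
      rintro ⟨_, a, rfl⟩
      obtain ⟨v, hv⟩ := cl_surjective (eta a)
      have h1 : v ∈ V23 := by
        rw [← cl_mem_W23, hv]
        exact (comm_y h hyQ hy a.2.2).1 (hZy _ a.2.1)
      refine ⟨v, h1, ⟨a, a.2.1, a.2.2, v, h1, hv, rfl⟩, ?_⟩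
      show Multiplicative.ofAdd (QuotientAddGroup.mk (eta a)) = _
      rw [hv]
    choose v hv hv1 hv2 using hch
    let g : Bool × f.range → BC h Z := fun p =>
      ⟨hwHom ⟨v p.2, hv p.2⟩ + (if p.1 then allOne else 0), (BC h Z).add_mem (hv1 p.2) (by
        split_ifs
        · exact allOne_mem_BC h
        · exact (BC h Z).zero_mem)⟩
    have hg : Function.Injective g := by
      rintro ⟨b, s⟩ ⟨b', s'⟩ hbs
      have h1 : hwHom ⟨v s, hv s⟩ + (if b then allOne else 0) =
        hwHom ⟨v s', hv s'⟩ + (if b' then allOne else 0) := congrArg Subtype.val hbs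
      have h2 : cl (v s) - cl (v s') ∈ W12 := by
        apply mem_W12_of_hw (hv s) (hv s')
        cases b <;> cases b'
        · left; simpa using h1
        · right; simpa using h1
        · right
          have h3 : hwHom ⟨v s, hv s⟩ + allOne = hwHom ⟨v s', hv s'⟩ := by simpa using h1
          rw [← h3, add_assoc, allOne_add_self, add_zero]
        · left
          have h3 : hwHom ⟨v s, hv s⟩ + allOne = hwHom ⟨v s', hv s'⟩ + allOne := by simpa using h1
          exact add_right_cancel h3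
      have h3 : s = s' := by
        apply Subtype.ext
        rw [hv2, hv2]
        congr 1
        rw [QuotientAddGroup.eq]
        have h4 := W12.neg_mem h2
        have e : -(cl (v s) - cl (v s')) = -cl (v s) + cl (v s') := by abel
        rwa [e] at h4
      subst h3
      have h4 : (if b then allOne else 0 : golayCode) = if b' then allOne else 0 := add_left_cancel h1
      have h5 : (allOne : golayCode) ≠ 0 := by
        intro h
        have := congrArg (fun c : golayCode => (c : GolayPt → ZMod 2) none) h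
        exact absurd this (by decide)
      cases b <;> cases b' <;> simp_all
    have h1 := Nat.card_le_card_of_injective g hg
    rwa [Nat.card_prod, Nat.card_eq_fintype_card (α := Bool), Fintype.card_bool] at h1
  calc 2 * Nat.card (Z ⊓ Q : Subgroup G) = (2 * Nat.card f.range) * Nat.card f.ker := by rw [e1]; ring
    _ ≤ Nat.card (BC h Z) * Nat.card (Z ⊓ EE h : Subgroup G) := Nat.mul_le_mul e3 e2

/-- the elements over octads -/
def OctCl (s : Co1) : Prop := ∃ o : golayCode, wt o = 8 ∧ IsConj s (eps o)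

/-- the elements over dodecads -/
def DodCl (s : Co1) : Prop := ∃ d : golayCode, wt d = 12 ∧ IsConj s (eps d)

theorem wt_of_oct {d : golayCode} (hd : OctCl (eps d)) : wt d = 8 ∨ wt d = 16 := by
  obtain ⟨o, ho, hc⟩ := hd
  rcases wt_of_isConj o d hc.symm with h1 | h1
  · left; omega
  · right; omega

/-- **The key lemma (4).** -/
theorem key_four (h : Chart Q z eta pi) {Z : Subgroup G} [Finite Z] (hyQ : y ∈ Q) (hy : eta y = f0) (hZ : ∀ a ∈ Z, ∀ b ∈ Z, a * b = b * a)
    (hyZ : y ∈ Z)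
    (hoct : ∀ a : Subgroup.centralizer ({z} : Set G), (a : G) ∈ Z → pi a ∈ E → (a : G) ∉ Q → OctCl (pi a))
    (h4 : 4 * Nat.card (Z ⊓ Q : Subgroup G) ≤ Nat.card (Z ⊓ RR pi : Subgroup G)) :
    Nat.card (Z ⊓ Q : Subgroup G) ≤ 4 * Nat.card (Z ⊓ EE h : Subgroup G) := by
  have hfin2 : Finite (Z ⊓ Q : Subgroup G) :=
    Finite.of_injective (Subgroup.inclusion (inf_le_left : Z ⊓ Q ≤ Z)) (Subgroup.inclusion_injective _)
  have hpos : 0 < Nat.card (Z ⊓ Q : Subgroup G) := Nat.card_pos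
  have h1 := card_AC h (Z := Z)
  have h2 : 8 ≤ Nat.card (AC pi Z) := by
    by_contra hcon
    have h3 : Nat.card (AC pi Z) * Nat.card (Z ⊓ Q : Subgroup G) ≤ 7 * Nat.card (Z ⊓ Q : Subgroup G) :=
      Nat.mul_le_mul_right _ (by omega)
    omega
  have hA : ∀ a ∈ AC pi Z, a ≠ 0 → a ≠ allOne → wt a = 8 ∨ wt a = 16 := by
    rintro d ⟨a, haZ, ha⟩ hd0 hd1
    apply wt_of_oct
    rw [← ha]
    refine hoct a haZ (by rw [ha]; exact (mem_E _).2 ⟨d, rfl⟩) ?_
    intro haQ
    have h3 := (h.pi_eq_one a).2 haQ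
    rw [ha, ← eps_zero, eps_eq_iff] at h3
    rcases h3 with h3 | h3
    · exact hd0 h3.symm
    · apply hd1
      have : d + allOne + allOne = allOne := by rw [← h3, zero_add]
      rwa [add_assoc, allOne_add_self, add_zero] at this
  have h5 := card_le_eight allOne_mem_AC hA (mulw_mem_of_comm h hZ) h2
  have h6 := card_BC h (Z := Z) hyQ hy (fun a ha => hZ a ha y hyZ)
  have h7 : Nat.card (BC h Z) * Nat.card (Z ⊓ EE h : Subgroup G) ≤ 8 * Nat.card (Z ⊓ EE h : Subgroup G) :=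
    Nat.mul_le_mul_right _ h5
  omega

/-- **The key lemma (8).** -/
theorem key_eight (h : Chart Q z eta pi) {Z : Subgroup G} [Finite Z] (hyQ : y ∈ Q) (hy : eta y = f0)
    (hZ : ∀ a ∈ Z, ∀ b ∈ Z, a * b = b * a) (hyZ : y ∈ Z)
    (hoct : ∀ a : Subgroup.centralizer ({z} : Set G), (a : G) ∈ Z → pi a ∈ E → (a : G) ∉ Q → OctCl (pi a))
    (h4 : 8 * Nat.card (Z ⊓ Q : Subgroup G) ≤ Nat.card (Z ⊓ RR pi : Subgroup G)) :
    Nat.card (Z ⊓ Q : Subgroup G) ≤ 2 * Nat.card (Z ⊓ EE h : Subgroup G) := by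
  have hfin2 : Finite (Z ⊓ Q : Subgroup G) :=
    Finite.of_injective (Subgroup.inclusion (inf_le_left : Z ⊓ Q ≤ Z)) (Subgroup.inclusion_injective _)
  have hpos : 0 < Nat.card (Z ⊓ Q : Subgroup G) := Nat.card_pos
  have h1 := card_AC h (Z := Z)
  have h2 : 16 ≤ Nat.card (AC pi Z) := by
    by_contra hcon
    have h3 : Nat.card (AC pi Z) * Nat.card (Z ⊓ Q : Subgroup G) ≤ 15 * Nat.card (Z ⊓ Q : Subgroup G) :=
      Nat.mul_le_mul_right _ (by omega)
    omega
  have hA : ∀ a ∈ AC pi Z, a ≠ 0 → a ≠ allOne → wt a = 8 ∨ wt a = 16 := by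
    rintro d ⟨a, haZ, ha⟩ hd0 hd1
    apply wt_of_oct
    rw [← ha]
    refine hoct a haZ (by rw [ha]; exact (mem_E _).2 ⟨d, rfl⟩) ?_
    intro haQ
    have h3 := (h.pi_eq_one a).2 haQ
    rw [ha, ← eps_zero, eps_eq_iff] at h3
    rcases h3 with h3 | h3
    · exact hd0 h3.symm
    · apply hd1
      have : d + allOne + allOne = allOne := by rw [← h3, zero_add]
      rwa [add_assoc, allOne_add_self, add_zero] at this
  have h5 := card_le_four allOne_mem_AC hA (mulw_mem_of_comm h hZ) h2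
  have h6 := card_BC h (Z := Z) hyQ hy (fun a ha => hZ a ha y hyZ)
  have h7 : Nat.card (BC h Z) * Nat.card (Z ⊓ EE h : Subgroup G) ≤ 4 * Nat.card (Z ⊓ EE h : Subgroup G) :=
    Nat.mul_le_mul_right _ h5
  omega

end

end Cfsg.Agent.R2.H4.Mon.KeyGrp
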