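import Cfsg.Agent.R2.H4.Mon.Frm
import Cfsg.Agent.LThreeMB.KPair
import Cfsg.Agent.MonsterU.ModelClasses
import Cfsg.Agent.MonsterX.KModel
import Cfsg.Agent.MonsterX.MainSimple
import Cfsg.Agent.MonsterU.Uncond
import Cfsg.Agent.MonsterU.TauInst
import Cfsg.Agent.MonsterP.Equiv

/-!
# The frame of the Monster

`exists_fr_model`, `exists_fr` : a frame of the model and of `Spor.Monster`.
-/

set_option autoImplicit false
set_option linter.unusedSectionVars false

open Cfsg

namespace Cfsg.Agent.R2.H4.Mon.MonFr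

open Cfsg.Agent.SporadicA.Co1Simple (allOne)
open Cfsg.Agent.SporadicA.Co0Mono (signCo0)
open Cfsg.Agent.CoOneType.CoOneE (pr pr_surjective)
open Cfsg.Agent.MonsterU.Lam2 (L2 IsType)
open Cfsg.Agent.MonsterU.CoFrameL2
open Cfsg.Agent.MonsterU.AmalInf (AA mem_AA)
open Cfsg.Agent.MonsterU.Ch
open Cfsg.Agent.MonsterX Cfsg.Agent.MonsterX.InstData
open Cfsg.Agent.MonsterX.KSide Cfsg.Agent.MonsterX.KLift
open Cfsg.Agent.MonsterX.Model Cfsg.Agent.MonsterX.MainSimple
open Cfsg.Agent.MonsterX.MainBasic Cfsg.Agent.MonsterX.MainPack Cfsg.Agent.MonsterX.KModel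
open Cfsg.Agent.MonsterU
open Cfsg.Agent.CoOneType.ClosingFacts (mk mk_eq mk_eq_one mk_mul mk_inv)
open Cfsg.Agent.LThreeMB (KChart.Cent KChart.pi KChart.chart KChart.pi_eq)
open Cfsg.Agent.R2.H4.Mon.Frm
open Cfsg.Spor (Co1)
open Subgroup (centralizer mem_centralizer_singleton_iff)

theorem z_eq {V P W : Type} [AddCommGroup V] [Module ℚ V] [Group P] [AddCommGroup W] [Module ℚ W]
    {D : MData V} {N : KS ↥D.G V P W} {x₀ : P} (H : Link D N x₀) {K₀ : Type} [Group K₀] (hG : MGroup D K₀) :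
    zG hG = N.z :=
  Subtype.ext H.z_eq

theorem cent {V P W : Type} [AddCommGroup V] [Module ℚ V] [Group P] [AddCommGroup W] [Module ℚ W]
    {D : MData V} {N : KS ↥D.G V P W} {x₀ : P} (H : Link D N x₀) {K₀ : Type} [Group K₀] (hG : MGroup D K₀)
    (hR : MRep D) (hL : MLat D) (hO : MOrbit D) (hT : MTrans D) : KChart.Cent N := by
  intro g hg
  rw [H.C_iff, ← mem_cent_iff hG hR hL hO hT, mem_centralizer_singleton_iff, z_eq H hG]
  exact hg

theorem hc : KChart.Cent KDone.K :=
  cent KDone.lnk KDone.mGroup KDone.mRep KDone.mLat Uncond.mOrbit Instance.mTrans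

theorem finite_model : Finite ↥InstData.M.G := G_finite Uncond.mOrbit

theorem simple_model : IsSimpleGroup ↥InstData.M.G := MonsterP.EquivOf.isM_model.1

theorem noB_model : ∀ a : Subgroup.centralizer ({KDone.K.z} : Set ↥InstData.M.G), (a : ↥InstData.M.G) * a = 1 →
    ∀ A : Co0, KChart.pi hc a = pr A → A * A = 1 := by
  intro a ha A hA
  have haK := hc a (mem_centralizer_singleton_iff.1 a.2)
  obtain ⟨B, hB⟩ := TwoQ.ind_exists haK
  have h1 : mk B = mk A := (KChart.pi_eq hc hB).symm.trans hA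
  have hI := TwoQ.Ind_of_mk hB h1
  have h2 : mk (A * A) = 1 := by
    have h3 := hI.mul hI
    rw [ha] at h3
    exact TwoQ.Ind_mk_eq h3 (FrameKS.Ind.one KDone.K)
  rcases (mk_eq_one _).1 h2 with h3 | h3
  · exact h3
  · exact absurd ha (TwoB0.two_b0 KDone.lft haK hI h3)

/-- **The frame of the model.** -/
theorem exists_fr_model : ∃ (Q : Subgroup ↥InstData.M.G) (z : ↥InstData.M.G) (eta : ↥InstData.M.G → L2)
    (pi : Subgroup.centralizer ({z} : Set ↥InstData.M.G) →* Co1) (y τ : ↥InstData.M.G), Fr Q z eta pi y τ := by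
  have := finite_model
  have := simple_model
  have h := KChart.chart KDone.lft hc
  obtain ⟨g, h1, h2, -⟩ := Cfsg.Agent.MonsterU.Fused.exists_type_four h
  obtain ⟨s, τ, h3, h4, h5⟩ := Cfsg.Agent.MonsterU.AmalSideOf.exists_frame h h1 h2 ⟨g, rfl⟩
  exact ⟨_, _, _, _, _, τ,
    { ch := h.smul s
      hyQ := h1
      hy := h5
      τz := h3
      τy := h4
      noB := noB_smul noB_model s }⟩

/-- transport of frames -/
theorem fr_transport {G G' : Type*} [Group G] [Group G'] (e : G' ≃* G) {Q : Subgroup G} {z : G} {eta : G → L2}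
    {pi : Subgroup.centralizer ({z} : Set G) →* Co1} {y τ : G} (F : Fr Q z eta pi y τ) :
    Fr (Q.comap e.toMonoidHom) (e.symm z) (fun x => eta (e x)) (pi.comp (Cfsg.Agent.H848.Setup.centMap e z))
      (e.symm y) (e.symm τ) where
  ch := Cfsg.Agent.H848.Setup.chart_transport e F.ch
  hyQ := by
    show e (e.symm y) ∈ Q
    rw [MulEquiv.apply_symm_apply]; exact F.hyQ
  hy := by
    show eta (e (e.symm y)) = f0
    rw [MulEquiv.apply_symm_apply]; exact F.hy
  τz := by rw [← map_inv, ← map_mul, ← map_mul, F.τz]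
  τy := by rw [← map_inv, ← map_mul, ← map_mul, ← map_mul, F.τy]
  noB := by
    intro a ha A hA
    refine F.noB (Cfsg.Agent.H848.Setup.centMap e z a) ?_ A hA
    show e (a : G') * e (a : G') = 1
    rw [← map_mul, ha, map_one]

theorem card : Nat.card Spor.Monster = 808017424794512875886459904961710757005754368000000000 :=
  Cfsg.Agent.MonsterP.Equiv.isM.2

theorem finite : Finite Spor.Monster := Nat.finite_of_card_ne_zero (by rw [card]; norm_num)

theorem simple : IsSimpleGroup Spor.Monster := Cfsg.Agent.MonsterP.Equiv.isM.1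

/-- **The frame of the Monster.** -/
theorem exists_fr : ∃ (Q : Subgroup Spor.Monster) (z : Spor.Monster) (eta : Spor.Monster → L2)
    (pi : Subgroup.centralizer ({z} : Set Spor.Monster) →* Co1) (y τ : Spor.Monster), Fr Q z eta pi y τ := by
  obtain ⟨Q, z, eta, pi, y, τ, F⟩ := exists_fr_model
  obtain ⟨e⟩ := Cfsg.Agent.MonsterP.Equiv.equiv
  exact ⟨_, _, _, _, _, _, fr_transport e F⟩

/-- **The involutions of the model.** -/
theorem two_model (u : ↥InstData.M.G) (huu : u * u = 1) (hu1 : u ≠ 1) : (∃ g, g * KDone.K.z * g⁻¹ = u) ∨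
    ∃ g, g * tG KDone.mGroup KDone.mRep * g⁻¹ = u := by
  rcases Cfsg.Agent.MonsterU.ModelClasses.classes KDone.mGroup KDone.mRep KDone.mLat Uncond.mOrbit Instance.mTrans
    KDone.lnk KDone.lft (TauInst.tauHyp (Final.cent Uncond.mOrbit Instance.mTrans)) u huu hu1 with ⟨g, hg⟩ | ⟨g, hg⟩
  · left
    exact ⟨g, by rw [← z_eq KDone.lnk KDone.mGroup]; exact hg⟩
  · exact Or.inr ⟨g, hg⟩

end Cfsg.Agent.R2.H4.Mon.MonFr
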